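import Cfsg.Agent.H914.Uni

/-!
# Normal form of rational structures of quadratic forms (helper914)
-/

set_option autoImplicit false
set_option linter.unusedSectionVars false

namespace Cfsg.Agent.H914

open Cfsg Cfsg.Geo
open scoped MatrixGroups Matrix

variable {ι : Type} [Fintype ι] [DecidableEq ι] {F : Type*} [Field F]

/-- In a finite field, every element of a subfield of index two is a square. -/
theorem isSquare_of_index_two [Finite F] {F₁ : Subfield F} (hcard : Nat.card F = Nat.card F₁ ^ 2) {x : F}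
    (hx : x ∈ F₁) : IsSquare x := by
  classical
  have : Fintype F := Fintype.ofFinite F
  by_cases hx0 : x = 0
  · subst hx0; exact ⟨0, by simp⟩
  by_cases h2 : ringChar F = 2
  · exact FiniteField.isSquare_of_char_two h2 x
  rw [FiniteField.isSquare_iff h2 hx0]
  have hq : x ^ (Nat.card F₁ - 1) = 1 := by
    have h1 := (mem_subfield_iff_pow F₁ x).mp hx
    have h3 : 1 < Nat.card F₁ := Finite.one_lt_card
    have h4 : x ^ (Nat.card F₁ - 1) * x = 1 * x := by
      rw [← pow_succ, Nat.sub_add_cancel (by omega), h1, one_mul]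
    exact mul_right_cancel₀ hx0 h4
  have hodd : Odd (Fintype.card F) := Nat.odd_iff.mpr (FiniteField.odd_card_of_char_ne_two h2)
  rw [← Nat.card_eq_fintype_card, hcard] at hodd ⊢
  have hq1 : Odd (Nat.card F₁) := (Nat.odd_pow_iff (by norm_num)).mp hodd
  obtain ⟨k, hk⟩ := hq1
  have e1 : Nat.card F₁ ^ 2 / 2 = (Nat.card F₁ - 1) * (k + 1) := by
    rw [hk]
    have : (2 * k + 1) ^ 2 = 2 * ((2 * k) * (k + 1)) + 1 := by ring
    rw [this]
    have : 2 * k + 1 - 1 = 2 * k := by omega
    rw [this]
    omega
  rw [e1, pow_mul, hq, one_pow]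

/-- In odd index, every element of a finite field is an element of the subfield times a square. -/
theorem exists_mul_isSquare [Finite F] {F₁ : Subfield F} {r : ℕ} (hodd : Odd r)
    (hcard : Nat.card F = Nat.card F₁ ^ r) (x : F) : ∃ w ∈ F₁, w ≠ 0 ∧ IsSquare (x * w) := by
  classical
  have : Fintype F := Fintype.ofFinite F
  have : Fintype F₁ := Fintype.ofFinite F₁
  by_cases hx0 : x = 0
  · subst hx0; exact ⟨1, F₁.one_mem, one_ne_zero, 0, by simp⟩
  by_cases h2 : ringChar F = 2
  · exact ⟨1, F₁.one_mem, one_ne_zero, FiniteField.isSquare_of_char_two h2 _⟩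
  by_cases hsq : IsSquare x
  · exact ⟨1, F₁.one_mem, one_ne_zero, by rwa [mul_one]⟩
  have h2' : ringChar F₁ ≠ 2 := by
    intro h
    apply h2
    have hc : CharP F₁ 2 := h ▸ ringChar.charP F₁
    have : CharP F 2 := (F₁.subtype.charP_iff_charP 2).mp hc
    exact ringChar.eq F 2 |>.symm ▸ rfl
  obtain ⟨w, hw⟩ := FiniteField.exists_nonsquare h2'
  have hw0 : w ≠ 0 := by rintro rfl; exact hw ⟨0, by simp⟩
  have hw0' : (w : F) ≠ 0 := fun h => hw0 (Subtype.ext h)
  have hwF : ¬ IsSquare (w : F) := by
    intro h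
    rw [FiniteField.isSquare_iff h2 hw0'] at h
    apply hw
    rw [FiniteField.isSquare_iff h2' hw0]
    rcases FiniteField.pow_dichotomy h2' hw0 with h3 | h3
    · exact h3
    · exfalso
      -- `w^((q^r-1)/2) = (w^((q-1)/2))^(odd) = -1`
      have hq1 : Odd (Fintype.card F₁) := Nat.odd_iff.mpr (FiniteField.odd_card_of_char_ne_two h2')
      obtain ⟨k, hk⟩ := hq1
      have hk' : Fintype.card F₁ / 2 = k := by omega
      rw [hk'] at h3
      rw [Nat.card_eq_fintype_card, Nat.card_eq_fintype_card, hk] at hcard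
      -- `(2k+1)^r = 2 k m + 1` with `m` odd
      have hm : ∀ n : ℕ, ∃ m, (2 * k + 1) ^ n = 2 * k * m + 1 ∧ m % 2 = n % 2 := by
        intro n
        induction n with
        | zero => exact ⟨0, by simp, rfl⟩
        | succ n ih =>
          obtain ⟨m, hm1, hm2⟩ := ih
          refine ⟨m * (2 * k + 1) + 1, ?_, ?_⟩
          · rw [pow_succ, hm1]; ring
          · have : m * (2 * k + 1) + 1 = 2 * (m * k) + (m + 1) := by ring
            rw [this]; omega
      obtain ⟨m, hm1, hm2⟩ := hm r
      rw [hm1] at hcard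
      have hc2 : Fintype.card F / 2 = k * m := by
        rw [hcard]
        have : 2 * k * m = 2 * (k * m) := by ring
        omega
      rw [hc2, pow_mul] at h
      have h4 : (w : F) ^ k = -1 := by
        have := congrArg (Subtype.val) h3
        simpa using this
      rw [h4] at h
      have hmodd : Odd m := by
        rw [Nat.odd_iff] at hodd ⊢
        omega
      rw [hmodd.neg_one_pow] at h
      have : (2 : F) = 0 := by linear_combination -h
      apply h2
      have : CharP F 2 := CharTwo.of_one_ne_zero_of_two_eq_zero one_ne_zero this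
      exact ringChar.eq F 2 |>.symm ▸ rfl
  refine ⟨w, w.2, hw0', ?_⟩
  -- product of two nonsquares
  rw [FiniteField.isSquare_iff h2 (mul_ne_zero hx0 hw0'), mul_pow]
  rw [FiniteField.isSquare_iff h2 hx0] at hsq
  rw [FiniteField.isSquare_iff h2 hw0'] at hwF
  rw [(FiniteField.pow_dichotomy h2 hx0).resolve_left hsq,
    (FiniteField.pow_dichotomy h2 hw0').resolve_left hwF]
  ring

/-- Rational structure of index two: the discriminant times `ζ^n` is a square. -/
theorem isSquare_disc_of_rational [Finite F] {F₁ : Subfield F} (hcard : Nat.card F = Nat.card F₁ ^ 2)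
    {f : (ι → F) → (ι → F) → F} (hf : IsSesq (RingEquiv.refl F) f) {ζ : F} {B : GL ι F}
    (hrat : IsFormRationalStructure f F₁ ζ B) : IsSquare (ζ ^ Fintype.card ι * (gramMatrix f).det) := by
  have hsingle : ∀ i j, (Pi.single i 1 : ι → F) j ∈ F₁ := by
    intro i j
    by_cases h : j = i
    · subst h; simp [F₁.one_mem]
    · simp [h, F₁.zero_mem]
  set M : Matrix ι ι F := ζ • gramMatrix (fun u v => f ((B : Matrix ι ι F) *ᵥ u) ((B : Matrix ι ι F) *ᵥ v)) with hM
  have hMF : ∀ i j, M i j ∈ F₁ := fun i j => hrat _ _ (hsingle i) (hsingle j)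
  have hdet : M.det ∈ F₁ := by
    rw [Matrix.det_apply]
    exact F₁.sum_mem fun p _ => F₁.zsmul_mem (F₁.prod_mem fun i _ => hMF _ _) _
  obtain ⟨y, hy⟩ := isSquare_of_index_two hcard hdet
  have hG : gramMatrix (fun u v => f ((B : Matrix ι ι F) *ᵥ u) ((B : Matrix ι ι F) *ᵥ v)) =
      (B : Matrix ι ι F)ᵀ * gramMatrix f * (B : Matrix ι ι F) := by
    have h1 : (fun u v => f ((B : Matrix ι ι F) *ᵥ u) ((B : Matrix ι ι F) *ᵥ v)) =
        sesqOf (RingEquiv.refl F) ((B : Matrix ι ι F)ᵀ * gramMatrix f * (B : Matrix ι ι F)) := by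
      funext u v
      rw [hf.eq_gram, sesqOf_mulVec]
      rfl
    rw [h1, gramMatrix_sesqOf]
  rw [hM, hG, Matrix.det_smul, Matrix.det_mul, Matrix.det_mul, Matrix.det_transpose] at hy
  have hB0 : (B : Matrix ι ι F).det ≠ 0 := ((Matrix.isUnit_iff_isUnit_det _).mp B.isUnit).ne_zero
  refine ⟨y / (B : Matrix ι ι F).det, ?_⟩
  field_simp
  linear_combination hy

/-- Normal form of a rational structure on an invariant quadratic form: after scaling `B`, either `Q` itself is
`F₁`-valued, or `r = 2`, the characteristic is odd, and `ζ Q` is `F₁`-valued for a non-square `ζ`; in the latter case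
the discriminant of `Q` is a square exactly when the dimension is even. -/
theorem quad_normal_form [Finite F] {P : Subgroup (GL ι F)}
    (hirr : ActsAbsolutelyIrreducibly (matrixSet P)) {F₁ : Subfield F} {r : ℕ} (hr : r.Prime)
    (hcard : Nat.card F = Nat.card F₁ ^ r) {B : GL ι F}
    (hB : ∀ s ∈ matrixSet P, ∀ i j,
      (((B⁻¹ : GL ι F) : Matrix ι ι F) * s * (B : Matrix ι ι F)) i j ∈ F₁)
    {Q : (ι → F) → F} (hQ : IsNondegenerateQuadraticForm Q) (hQP : FixesQuadForm (matrixSet P) Q) :
    (∃ B' : GL ι F, IsQuadFormRationalStructure Q F₁ B' ∧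
      subfieldSubgroup F₁ B' = subfieldSubgroup F₁ B ∧ (r = 2 → HasSquareDiscriminant Q)) ∨
    (r = 2 ∧ (2 : F) ≠ 0 ∧ (HasSquareDiscriminant Q ↔ Even (Fintype.card ι)) ∧
      ∃ ζ : F, ¬ IsSquare ζ ∧ ∀ u : ι → F, (∀ i, u i ∈ F₁) → ζ * Q ((B : Matrix ι ι F) *ᵥ u) ∈ F₁) := by
  classical
  have : Fintype F := Fintype.ofFinite F
  obtain ⟨ζ, hζ, hrat⟩ := exists_quad_rational hirr hB hQ hQP
  have hpol : IsFormRationalStructure (QuadraticMap.polar Q) F₁ ζ B := by
    intro u v hu hv
    have h1 := hrat (u + v) (fun i => F₁.add_mem (hu i) (hv i))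
    have h2 := hrat u hu
    have h3 := hrat v hv
    rw [Matrix.mulVec_add] at h1
    have h4 := F₁.sub_mem (F₁.sub_mem h1 h2) h3
    unfold QuadraticMap.polar
    convert h4 using 1
    ring
  -- scaling
  have hscale : ∀ w ∈ F₁, w ≠ 0 → IsSquare (ζ * w) →
      ∃ B' : GL ι F, IsQuadFormRationalStructure Q F₁ B' ∧
        subfieldSubgroup F₁ B' = subfieldSubgroup F₁ B := by
    intro w hw hw0 hsq
    obtain ⟨c, hc⟩ := hsq
    have hc0 : c ≠ 0 := by
      rintro rfl
      rw [zero_mul] at hc
      exact mul_ne_zero hζ hw0 hc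
    refine ⟨scaleGL c hc0 B, ?_, subfieldSubgroup_scaleGL F₁ c hc0 B⟩
    intro u hu
    rw [scaleGL_val, Matrix.smul_mulVec, hQ.smul, pow_two, ← hc]
    have := F₁.mul_mem hw (hrat u hu)
    convert this using 1
    ring
  rcases hr.eq_two_or_odd' with rfl | hodd
  · have hsq := isSquare_disc_of_rational hcard (IsSesq.of_bilinear hQ.polar_bilinear) hpol
    by_cases h2 : (2 : F) = 0
    · left
      have hring : ringChar F = 2 := by
        have : CharP F 2 := CharTwo.of_one_ne_zero_of_two_eq_zero one_ne_zero h2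
        exact ringChar.eq F 2 |>.symm ▸ rfl
      obtain ⟨B', h1, h3⟩ := hscale 1 F₁.one_mem one_ne_zero (FiniteField.isSquare_of_char_two hring _)
      exact ⟨B', h1, h3, fun _ => FiniteField.isSquare_of_char_two hring _⟩
    · by_cases hζs : IsSquare ζ
      · left
        obtain ⟨B', h1, h3⟩ := hscale 1 F₁.one_mem one_ne_zero (by rwa [mul_one])
        refine ⟨B', h1, h3, fun _ => ?_⟩
        obtain ⟨y, hy⟩ := hsq
        obtain ⟨z, hz⟩ := hζs
        have hz0 : z ≠ 0 := by
          rintro rfl
          rw [zero_mul] at hz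
          exact hζ hz
        refine ⟨y / z ^ Fintype.card ι, ?_⟩
        rw [hz, mul_pow] at hy
        rw [div_mul_div_comm, ← hy]
        field_simp
      · right
        refine ⟨rfl, h2, ?_, ζ, hζs, hrat⟩
        have hring : ringChar F ≠ 2 := by
          intro h
          apply h2
          have hc : CharP F 2 := h ▸ ringChar.charP F
          exact_mod_cast CharP.cast_eq_zero F 2
        have hD0 : (gramMatrix (QuadraticMap.polar Q)).det ≠ 0 :=
          det_gram_ne_zero (IsSesq.of_bilinear hQ.polar_bilinear) hQ.nondegenerate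
        unfold HasSquareDiscriminant
        rw [FiniteField.isSquare_iff hring (mul_ne_zero (pow_ne_zero _ hζ) hD0), mul_pow, ← pow_mul,
          mul_comm (Fintype.card ι), pow_mul] at hsq
        rw [FiniteField.isSquare_iff hring hζ] at hζs
        rw [(FiniteField.pow_dichotomy hring hζ).resolve_left hζs] at hsq
        rw [FiniteField.isSquare_iff hring hD0]
        have hne : (-1 : F) ≠ 1 := by
          intro h
          apply h2
          linear_combination -h
        rcases Nat.even_or_odd (Fintype.card ι) with he | ho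
        · rw [he.neg_one_pow, one_mul] at hsq
          simp [hsq, he]
        · rw [ho.neg_one_pow] at hsq
          constructor
          · intro h
            rw [h, mul_one] at hsq
            exact absurd hsq hne
          · intro h
            exact absurd h (Nat.not_even_iff_odd.mpr ho)
  · left
    obtain ⟨w, hw, hw0, hsq⟩ := exists_mul_isSquare hodd hcard ζ
    obtain ⟨B', h1, h3⟩ := hscale w hw hw0 hsq
    exact ⟨B', h1, h3, fun h => by subst h; exact absurd hodd (by decide)⟩

end Cfsg.Agent.H914
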