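import Cfsg.Agent.S5060

/-!
# Square-zero elements in finite matrix groups: pairs of root elements (helper914)

`M` is a group of units of an `F`-algebra `A`, `𝓝` a set of square-zero elements with `1 + N ∈ M`, invariant under `M`
and non-zero scalars, such that commuting elements of `𝓝` are proportional. Under a condition on degrees,
`N₁ N₂ + N₂ N₁` is a non-zero scalar for all non-proportional `N₁, N₂ ∈ 𝓝` (`RootSet.anticomm_scalar`).
-/

set_option autoImplicit false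
set_option linter.unusedSectionVars false

open Polynomial

namespace Cfsg.Agent.H914.RootPair

variable {F : Type*} [Field F] {A : Type*} [Ring A] [Algebra F A]

/-- A set of square-zero root elements. -/
structure RootSet (F : Type*) [Field F] {A : Type*} [Ring A] [Algebra F A] (M : Subgroup Aˣ) (S : Set A) : Prop where
  sq : ∀ N ∈ S, N * N = 0
  smul : ∀ N ∈ S, ∀ c : F, c ≠ 0 → c • N ∈ S
  conj : ∀ g ∈ M, ∀ N ∈ S, (g : A) * N * ((g⁻¹ : Aˣ) : A) ∈ S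
  mem : ∀ N ∈ S, ∀ g : Aˣ, (g : A) = 1 + N → g ∈ M
  comm : ∀ N ∈ S, ∀ N' ∈ S, N * N' = N' * N → ∃ c : F, N' = c • N
  ker : ∀ N ∈ S, ∀ e : A, e * e = e → e * N = N * e → (1 - e) * N = 0 → e = 1
  deg : ∀ N ∈ S, ∀ Z : A, Z * N = N * Z → ∃ χ : F[X], χ ≠ 0 ∧ χ.natDegree ≤ 3 ∧ aeval Z χ * N = 0

/-- The unit `1 + N`, `N² = 0`. -/
def unip (N : A) (h : N * N = 0) : Aˣ where
  val := 1 + N
  inv := 1 - N
  val_inv := by
    rw [add_mul, one_mul, mul_sub, mul_one, h]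
    abel
  inv_val := by
    rw [sub_mul, one_mul, mul_add, mul_one, h]
    abel

variable {M : Subgroup Aˣ} {S : Set A}

theorem RootSet.sq_smul (h : RootSet F M S) {N : A} (hN : N ∈ S) (c : F) : (c • N) * (c • N) = 0 := by
  rw [smul_mul_smul_comm, h.sq N hN, smul_zero]

theorem RootSet.unip_mem (h : RootSet F M S) {N : A} (hN : N ∈ S) (c : F) :
    unip (c • N) (h.sq_smul hN c) ∈ M := by
  by_cases hc : c = 0
  · have : unip (c • N) (h.sq_smul hN c) = 1 := by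
      apply Units.ext
      show 1 + c • N = 1
      rw [hc, zero_smul, add_zero]
    rw [this]
    exact M.one_mem
  · exact h.mem _ (h.smul N hN c hc) _ rfl

/-- The conjugate `(1 + a N₁) N₂ (1 - a N₁)`. -/
theorem RootSet.conj_mem (h : RootSet F M S) {N₁ N₂ : A} (h1 : N₁ ∈ S) (h2 : N₂ ∈ S) (a : F) :
    (1 + a • N₁) * N₂ * (1 - a • N₁) ∈ S := h.conj _ (h.unip_mem h1 a) _ h2

/-- `Z` commutes with the two elements. -/
theorem Z_comm_left {N₁ N₂ : A} (h1 : N₁ * N₁ = 0) :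
    (N₁ * N₂ + N₂ * N₁) * N₁ = N₁ * (N₁ * N₂ + N₂ * N₁) := by
  rw [add_mul, mul_add, mul_assoc N₂ N₁ N₁, h1, mul_zero, add_zero, ← mul_assoc N₁ N₁ N₂, h1, zero_mul, zero_add,
    mul_assoc]

theorem Z_comm_right {N₁ N₂ : A} (h2 : N₂ * N₂ = 0) :
    (N₁ * N₂ + N₂ * N₁) * N₂ = N₂ * (N₁ * N₂ + N₂ * N₁) := by
  rw [add_comm (N₁ * N₂) (N₂ * N₁)]
  exact Z_comm_left h2

theorem prop_symm {N₁ N₂ : A} (h : ∃ c : F, N₂ = c • N₁) (h2 : N₂ ≠ 0) : ∃ c : F, N₁ = c • N₂ := by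
  obtain ⟨c, hc⟩ := h
  have hc0 : c ≠ 0 := by
    rintro rfl
    rw [zero_smul] at hc
    exact h2 hc
  exact ⟨c⁻¹, by rw [hc, smul_smul, inv_mul_cancel₀ hc0, one_smul]⟩

/-- Anticommuting elements are proportional. -/
theorem RootSet.prop_of_anticomm (h : RootSet F M S) (h20 : (2 : F) ≠ 0) {N₁ N₂ : A} (h1 : N₁ ∈ S) (h2 : N₂ ∈ S)
    (hZ : N₁ * N₂ + N₂ * N₁ = 0) : ∃ c : F, N₂ = c • N₁ := by
  have s1 := h.sq _ h1
  have s2 := h.sq _ h2
  have hN : N₂ * N₁ = -(N₁ * N₂) := by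
    rw [eq_neg_iff_add_eq_zero, add_comm]; exact hZ
  -- it is enough to show that `N₁ N₂ = 0`
  suffices h0 : N₁ * N₂ = 0 by
    apply h.comm _ h1 _ h2
    rw [hN, h0, neg_zero]
  have hmem := h.conj_mem h1 h2 1
  have e1 : (1 + (1 : F) • N₁) * N₂ * (1 - (1 : F) • N₁) = N₂ + (2 : F) • (N₁ * N₂) := by
    rw [one_smul, two_smul]
    have e2 : (1 + N₁) * N₂ * (1 - N₁) = N₂ + N₁ * N₂ - N₂ * N₁ - N₁ * (N₂ * N₁) := by noncomm_ring
    rw [e2, hN, mul_neg, ← mul_assoc, s1, zero_mul]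
    abel
  rw [e1] at hmem
  obtain ⟨μ, hμ⟩ := h.comm _ h2 _ hmem (by
    rw [mul_add, add_mul, s2, mul_smul_comm, smul_mul_assoc, mul_assoc N₁ N₂ N₂, s2, mul_zero, smul_zero,
      ← mul_assoc, hN, neg_mul, mul_assoc, s2, mul_zero, neg_zero, smul_zero])
  have h3 : (2 : F) • (N₁ * N₂) = (μ - 1) • N₂ := by
    rw [sub_smul, one_smul, ← hμ]
    abel
  have h4 : (μ - 1) • (N₁ * N₂) = 0 := by
    have h5 := congrArg (fun x => N₁ * x) h3
    simp only [mul_smul_comm] at h5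
    rw [← mul_assoc, s1, zero_mul, smul_zero] at h5
    exact h5.symm
  by_cases hμ1 : μ - 1 = 0
  · rw [hμ1, zero_smul] at h3
    exact (smul_eq_zero.mp h3).resolve_left h20
  · exact (smul_eq_zero.mp h4).resolve_left hμ1

theorem conj_formula {N₁ N₂ : A} (a : F) :
    (1 + a • N₁) * N₂ * (1 - a • N₁) = N₂ + a • (N₁ * N₂ - N₂ * N₁) - (a ^ 2) • (N₁ * N₂ * N₁) := by
  rw [add_mul, one_mul, mul_sub, mul_one, add_mul]
  simp only [smul_mul_assoc, mul_smul_comm, smul_sub, smul_smul]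
  rw [pow_two]
  abel

/-- The anticommutator of the conjugate with `N₁`. -/
theorem anticomm_conj {N₁ N₂ : A} (s1 : N₁ * N₁ = 0) (a : F) :
    N₁ * ((1 + a • N₁) * N₂ * (1 - a • N₁)) + (1 + a • N₁) * N₂ * (1 - a • N₁) * N₁ = N₁ * N₂ + N₂ * N₁ := by
  rw [conj_formula]
  have e1 : N₁ * (N₁ * N₂) = 0 := by rw [← mul_assoc, s1, zero_mul]
  have e2 : N₂ * N₁ * N₁ = 0 := by rw [mul_assoc, s1, mul_zero]
  have e3 : N₁ * (N₁ * N₂ * N₁) = 0 := by rw [← mul_assoc, ← mul_assoc, s1, zero_mul, zero_mul]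
  have e4 : N₁ * N₂ * N₁ * N₁ = 0 := by rw [mul_assoc, s1, mul_zero]
  simp only [mul_add, add_mul, mul_sub, sub_mul, mul_smul_comm, smul_mul_assoc, e1, e2, e3, e4, smul_zero, smul_sub]
  rw [← mul_assoc N₁ N₂ N₁]
  abel

/-- The anticommutator of the conjugate with `N₂` is `-a² Z²`. -/
theorem anticomm_conj' {N₁ N₂ : A} (s1 : N₁ * N₁ = 0) (s2 : N₂ * N₂ = 0) (a : F) :
    N₂ * ((1 + a • N₁) * N₂ * (1 - a • N₁)) + (1 + a • N₁) * N₂ * (1 - a • N₁) * N₂ =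
      -(a ^ 2 • ((N₁ * N₂ + N₂ * N₁) * (N₁ * N₂ + N₂ * N₁))) := by
  rw [conj_formula]
  have e1 : N₂ * (N₂ * N₁) = 0 := by rw [← mul_assoc, s2, zero_mul]
  have e2 : N₁ * N₂ * N₂ = 0 := by rw [mul_assoc, s2, mul_zero]
  have e3 : N₁ * N₂ * (N₂ * N₁) = 0 := by rw [mul_assoc, ← mul_assoc N₂, s2, zero_mul, mul_zero]
  have e4 : N₂ * N₁ * (N₁ * N₂) = 0 := by rw [mul_assoc, ← mul_assoc N₁, s1, zero_mul, mul_zero]
  simp only [mul_add, add_mul, mul_sub, sub_mul, mul_smul_comm, smul_mul_assoc, e1, e2, e3, e4, s2, smul_zero,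
    smul_sub, smul_add, zero_add, add_zero, sub_zero, zero_sub, neg_add]
  simp only [mul_assoc]
  abel

/-- `(L1)` If the anticommutator is nilpotent, the elements are proportional. -/
theorem RootSet.prop_of_nilpotent (h : RootSet F M S) (h20 : (2 : F) ≠ 0) (k : ℕ) :
    ∀ N₁ ∈ S, ∀ N₂ ∈ S, (N₁ * N₂ + N₂ * N₁) ^ (2 ^ k) = 0 → ∃ c : F, N₂ = c • N₁ := by
  induction k with
  | zero =>
    intro N₁ h1 N₂ h2 hZ
    rw [pow_zero, pow_one] at hZ
    exact h.prop_of_anticomm h20 h1 h2 hZ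
  | succ k ih =>
    intro N₁ h1 N₂ h2 hZ
    by_cases hZ0 : N₁ * N₂ + N₂ * N₁ = 0
    · exact h.prop_of_anticomm h20 h1 h2 hZ0
    have s1 := h.sq _ h1
    have s2 := h.sq _ h2
    have hmem := h.conj_mem h1 h2 1
    have hanti := anticomm_conj' (F := F) s1 s2 1
    simp only [one_pow, one_smul] at hanti
    obtain ⟨μ, hμ⟩ := ih N₂ h2 _ hmem (by
      simp only [one_smul]
      rw [hanti, neg_pow, ← pow_two, ← pow_mul, ← pow_succ', hZ, mul_zero])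
    have h3 := anticomm_conj (N₂ := N₂) s1 (1 : F)
    rw [hμ, mul_smul_comm, smul_mul_assoc, ← smul_add] at h3
    have hμ1 : μ = 1 := by
      have h4 : (μ - 1) • (N₁ * N₂ + N₂ * N₁) = 0 := by rw [sub_smul, h3, one_smul, sub_self]
      exact sub_eq_zero.mp ((smul_eq_zero.mp h4).resolve_right hZ0)
    rw [hμ1, conj_formula] at hμ
    simp only [one_pow, one_smul] at hμ
    -- `N₁ N₂ - N₂ N₁ = N₁ N₂ N₁`
    have h5 : N₁ * N₂ - N₂ * N₁ = N₁ * N₂ * N₁ := by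
      have h6 : N₂ + (N₁ * N₂ - N₂ * N₁) - N₁ * N₂ * N₁ - N₂ = 0 := by rw [hμ, sub_self]
      have h7 : N₂ + (N₁ * N₂ - N₂ * N₁) - N₁ * N₂ * N₁ - N₂ = N₁ * N₂ - N₂ * N₁ - N₁ * N₂ * N₁ := by abel
      rw [h7] at h6
      exact sub_eq_zero.mp h6
    have h8 : N₁ * N₂ * N₁ = 0 := by
      have h9 := congrArg (fun x => x * N₁) h5
      simp only [sub_mul] at h9
      rw [mul_assoc N₂ N₁ N₁, s1, mul_zero, sub_zero, mul_assoc (N₁ * N₂) N₁ N₁, s1, mul_zero] at h9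
      exact h9
    rw [h8, sub_eq_zero] at h5
    exact h.comm _ h1 _ h2 h5

theorem RootSet.prop_of_isNilpotent (h : RootSet F M S) (h20 : (2 : F) ≠ 0) {N₁ N₂ : A} (h1 : N₁ ∈ S) (h2 : N₂ ∈ S)
    (hZ : IsNilpotent (N₁ * N₂ + N₂ * N₁)) : ∃ c : F, N₂ = c • N₁ := by
  obtain ⟨n, hn⟩ := hZ
  refine h.prop_of_nilpotent h20 n N₁ h1 N₂ h2 ?_
  obtain ⟨k, hk⟩ := Nat.exists_eq_add_of_le (Nat.lt_two_pow_self (n := n)).le
  rw [hk, pow_add, hn, zero_mul]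

end Cfsg.Agent.H914.RootPair
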