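import Cfsg.Agent.H914.RootPair2

/-!
# Pairs of root elements, III: the anticommutator is a scalar (helper914)
-/

set_option autoImplicit false
set_option linter.unusedSectionVars false

open Polynomial

namespace Cfsg.Agent.H914.RootPair

variable {F : Type*} [Field F] {A : Type*} [Ring A] [Algebra F A] {k : Type*} [Field k] [Algebra F k]
variable {M : Subgroup Aˣ} {S : Set A} {N₁ N₂ : A} {ρ : k → A} {α : k}

/-- The squares of the elements of `F(α)` lie in `F`. -/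
theorem RootSet.sq_mem (hS : RootSet F M S) (h : KData F N₁ N₂ ρ α) (h1 : N₁ ∈ S) (h2 : N₂ ∈ S) (he : ρ 1 ≠ 0)
    (hk2 : ringChar F ≠ 2) (hk3 : Nat.card F ≠ 3) (hα : IsAlgebraic F α) {t : k} (ht0 : t ≠ 0)
    (ht : t ∈ IntermediateField.adjoin F ({α} : Set k)) :
    ∃ μ : F, t * t = algebraMap F k μ ∧ (1 - ρ 1) * N₁ = μ • ((1 - ρ 1) * N₁) := by
  have hdet : (!![t, 0; 0, t⁻¹] : Matrix (Fin 2) (Fin 2) k).det = 1 := by
    rw [Matrix.det_fin_two_of, mul_inv_cancel₀ ht0]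
    ring
  obtain ⟨m, hm, x, y, hmE⟩ := h.exists_Psi hS h1 h2 hk2 hk3 hα ⟨!![t, 0; 0, t⁻¹], hdet⟩ (by
    intro i j
    fin_cases i <;> fin_cases j
    · exact ht
    · exact zero_mem _
    · exact zero_mem _
    · exact inv_mem ht)
  have hconj := hS.conj m hm N₁ h1
  rw [h.torus_conj ht0 hmE] at hconj
  have hcN : (ρ (t * t) + (1 - ρ 1)) * N₁ = N₁ * (ρ (t * t) + (1 - ρ 1)) := by
    rw [add_mul, mul_add, sub_mul, mul_sub, one_mul, mul_one, h.c1, h.c1]
  obtain ⟨μ, hμ⟩ := hS.comm N₁ h1 _ hconj (by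
    rw [← mul_assoc, ← hcN])
  have hone : ρ 1 * (1 - ρ 1) = 0 := by rw [mul_sub, mul_one, h.mul_one', sub_self]
  have hone' : (1 - ρ 1) * (1 - ρ 1) = 1 - ρ 1 := by
    have e3 := h.mul_one' 1
    simp only [mul_sub, sub_mul, mul_one, one_mul, e3]
    abel
  have hone'' : (1 - ρ 1) * ρ (t * t) = 0 := by rw [sub_mul, one_mul, h.one_mul', sub_self]
  refine ⟨μ, ?_, ?_⟩
  · by_contra hne
    have hne' : t * t - algebraMap F k μ ≠ 0 := sub_ne_zero.mpr hne
    have e1 : ρ (t * t) * N₁ = μ • (ρ 1 * N₁) := by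
      have e2 : ρ 1 * ((ρ (t * t) + (1 - ρ 1)) * N₁) = ρ 1 * (μ • N₁) := by rw [hμ]
      rw [← mul_assoc, mul_add, hone, add_zero, h.one_mul', mul_smul_comm] at e2
      exact e2
    have e2 : ρ (t * t - algebraMap F k μ) * N₁ = 0 := by
      have e3 : ρ (t * t) = ρ (t * t - algebraMap F k μ) + μ • ρ 1 := by
        rw [← h.alg, ← h.add, mul_one, sub_add_cancel]
      rw [e3, add_mul, smul_mul_assoc] at e1
      exact add_eq_right.mp e1
    have e3 : ρ 1 * N₁ = 0 := by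
      have e4 : ρ 1 = ρ (t * t - algebraMap F k μ)⁻¹ * ρ (t * t - algebraMap F k μ) := by
        rw [← h.mul, inv_mul_cancel₀ hne']
      rw [e4, mul_assoc, e2, mul_zero]
    apply he
    have e5 : ρ α = 0 := by
      rw [h.a, add_mul, mul_assoc, ← h.c2, ← mul_assoc, ← h.c1, e3, zero_mul, mul_assoc, ← h.c1, e3, mul_zero, add_zero]
    have e6 : ρ 1 = ρ α⁻¹ * ρ α := by rw [← h.mul, inv_mul_cancel₀ h.a0]
    rw [e6, e5, mul_zero]
  · have e2 : (1 - ρ 1) * ((ρ (t * t) + (1 - ρ 1)) * N₁) = (1 - ρ 1) * (μ • N₁) := by rw [hμ]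
    rw [← mul_assoc, mul_add, hone', hone'', zero_add, mul_smul_comm] at e2
    exact e2

theorem RootSet.idem_eq_one (hS : RootSet F M S) (h : KData F N₁ N₂ ρ α) (h1 : N₁ ∈ S) (h2 : N₂ ∈ S) (he : ρ 1 ≠ 0)
    (hk2 : ringChar F ≠ 2) (hk3 : Nat.card F ≠ 3) (hα : IsAlgebraic F α) (ht : ∃ t : F, t ≠ 0 ∧ t * t ≠ 1) :
    ρ 1 = 1 := by
  obtain ⟨t, ht0, ht1⟩ := ht
  have hinj := (algebraMap F k).injective
  obtain ⟨μ, hμ, hμ'⟩ := hS.sq_mem h h1 h2 he hk2 hk3 hα (t := algebraMap F k t) (by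
    rw [Ne, map_eq_zero]; exact ht0) (IntermediateField.algebraMap_mem _ t)
  rw [← map_mul] at hμ
  have hμt := hinj hμ
  have e1 : (1 - μ) • ((1 - ρ 1) * N₁) = 0 := by rw [sub_smul, one_smul, ← hμ', sub_self]
  have e2 : (1 - ρ 1) * N₁ = 0 := by
    refine (smul_eq_zero.mp e1).resolve_left ?_
    rw [← hμt]
    exact fun h => ht1 (sub_eq_zero.mp h).symm
  exact hS.ker N₁ h1 _ (h.mul_one' 1) (h.c1 1) e2

theorem RootSet.scalar_of (hS : RootSet F M S) (h : KData F N₁ N₂ ρ α) (h1 : N₁ ∈ S) (h2 : N₂ ∈ S) (he : ρ 1 ≠ 0)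
    (hk2 : ringChar F ≠ 2) (hk3 : Nat.card F ≠ 3) (hα : IsAlgebraic F α) :
    ∃ c : F, c ≠ 0 ∧ α = algebraMap F k c := by
  have h20 : (2 : F) ≠ 0 := Ring.two_ne_zero hk2
  suffices hs : ∃ c : F, α = algebraMap F k c by
    obtain ⟨c, hc⟩ := hs
    refine ⟨c, ?_, hc⟩
    rintro rfl
    rw [map_zero] at hc
    exact h.a0 hc
  have hmem : α ∈ IntermediateField.adjoin F ({α} : Set k) := IntermediateField.mem_adjoin_simple_self F α
  obtain ⟨μ, hμ, -⟩ := hS.sq_mem h h1 h2 he hk2 hk3 hα h.a0 hmem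
  by_cases hα1 : α + 1 = 0
  · exact ⟨-1, by rw [map_neg, map_one]; exact eq_neg_of_add_eq_zero_left hα1⟩
  · obtain ⟨μ', hμ', -⟩ := hS.sq_mem h h1 h2 he hk2 hk3 hα hα1 (add_mem hmem (one_mem _))
    refine ⟨(μ' - μ - 1) / 2, ?_⟩
    have h2k : algebraMap F k 2 ≠ 0 := by rw [Ne, map_eq_zero]; exact h20
    rw [map_div₀, eq_div_iff h2k, map_sub, map_sub, ← hμ, ← hμ', map_one, map_ofNat]
    ring

/-- The data before the normalisation. -/
structure Pre (F : Type*) [Field F] {A : Type*} [Ring A] [Algebra F A] {k : Type*} [Field k] [Algebra F k]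
    (N₁ N₂ : A) (ρ : k → A) (α : k) : Prop where
  s1 : N₁ * N₁ = 0
  s2 : N₂ * N₂ = 0
  add : ∀ x y, ρ (x + y) = ρ x + ρ y
  mul : ∀ x y, ρ (x * y) = ρ x * ρ y
  alg : ∀ (c : F) x, ρ (algebraMap F k c * x) = c • ρ x
  c1 : ∀ x, ρ x * N₁ = N₁ * ρ x
  c2 : ∀ x, ρ x * N₂ = N₂ * ρ x
  a : ρ α = (N₁ * N₂ + N₂ * N₁) * ρ 1
  a0 : α ≠ 0

theorem Pre.neg (h : Pre F N₁ N₂ ρ α) (x : k) : ρ (-x) = -ρ x := by
  have h1 := h.add x (-x)
  have h0 := h.add 0 0
  rw [add_zero] at h0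
  have h0' := left_eq_add.mp h0
  rw [add_neg_cancel, h0'] at h1
  exact (neg_eq_of_add_eq_zero_right h1.symm).symm

theorem Pre.cZ (h : Pre F N₁ N₂ ρ α) (x : k) : ρ x * (N₁ * N₂ + N₂ * N₁) = (N₁ * N₂ + N₂ * N₁) * ρ x := by
  rw [mul_add, add_mul, ← mul_assoc, h.c1, mul_assoc, h.c2, ← mul_assoc, ← mul_assoc, h.c2, mul_assoc N₂, h.c1,
    ← mul_assoc]

/-- The conjugated pair. -/
theorem Pre.step (h : Pre F N₁ N₂ ρ α) :
    Pre F N₂ ((1 + (1 : F) • N₁) * N₂ * (1 - (1 : F) • N₁)) ρ (-(α * α)) where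
  s1 := h.s2
  s2 := by
    rw [one_smul]
    have e : (1 - N₁) * (1 + N₁) = 1 := by
      rw [sub_mul, one_mul, mul_add, mul_one, h.s1]
      abel
    calc _ = (1 + N₁) * N₂ * ((1 - N₁) * (1 + N₁)) * N₂ * (1 - N₁) := by simp only [mul_assoc]
      _ = 0 := by rw [e, mul_one, mul_assoc (1 + N₁) N₂ N₂, h.s2, mul_zero, zero_mul]
  add := h.add
  mul := h.mul
  alg := h.alg
  c1 := h.c2
  c2 := fun x => by
    rw [one_smul]
    have e1 : Commute (ρ x) N₁ := h.c1 x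
    have e2 : Commute (ρ x) N₂ := h.c2 x
    exact (((Commute.one_right _).add_right e1).mul_right e2).mul_right ((Commute.one_right _).sub_right e1)
  a := by
    have e := anticomm_conj' (F := F) h.s1 h.s2 1
    rw [e, one_pow, one_smul, h.neg, h.mul, h.a, neg_mul]
    congr 1
    have e2 : ρ 1 * ρ 1 = ρ 1 := by rw [← h.mul, mul_one]
    calc (N₁ * N₂ + N₂ * N₁) * ρ 1 * ((N₁ * N₂ + N₂ * N₁) * ρ 1)
        = (N₁ * N₂ + N₂ * N₁) * (ρ 1 * (N₁ * N₂ + N₂ * N₁)) * ρ 1 := by simp only [mul_assoc]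
      _ = _ := by rw [h.cZ]; simp only [mul_assoc]; rw [e2]
  a0 := neg_ne_zero.mpr (mul_ne_zero h.a0 h.a0)

theorem RootSet.idem_eq_one' (hS : RootSet F M S) (hk2 : ringChar F ≠ 2) (hk3 : Nat.card F ≠ 3)
    (ht : ∃ t : F, t ≠ 0 ∧ t * t ≠ 1) (he : ρ 1 ≠ 0) (halg : ∀ x : k, IsAlgebraic F x) (j : ℕ) :
    ∀ N₁ ∈ S, ∀ N₂ ∈ S, ∀ α : k, Pre F N₁ N₂ ρ α → (1 - ρ 1) * (N₁ * N₂ + N₂ * N₁) ^ (2 ^ j) = 0 → ρ 1 = 1 := by
  induction j with
  | zero =>
    intro N₁ h1 N₂ h2 α h hZ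
    rw [pow_zero, pow_one] at hZ
    have hmem := hS.conj_mem h1 h2 1
    have h' := h.step
    have e212 : N₂ * N₁ * N₂ = (N₁ * N₂ + N₂ * N₁) * N₂ := by
      rw [add_mul, mul_assoc N₁ N₂ N₂, h.s2, mul_zero, zero_add]
    have hcN : (1 - ρ 1) * N₁ = N₁ * (1 - ρ 1) := by rw [sub_mul, mul_sub, one_mul, mul_one, h.c1]
    have hK : KData F N₂ ((1 + (1 : F) • N₁) * N₂ * (1 - (1 : F) • N₁)) ρ (-(α * α)) :=
      { s1 := h'.s1, s2 := h'.s2, add := h'.add, mul := h'.mul, alg := h'.alg, c1 := h'.c1, c2 := h'.c2, a := h'.a,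
        a0 := h'.a0
        z1 := by
          have e1 : N₂ * ((1 + (1 : F) • N₁) * N₂ * (1 - (1 : F) • N₁)) = (N₁ * N₂ + N₂ * N₁) * (N₂ * (1 - N₁)) := by
            rw [one_smul, ← mul_assoc, ← mul_assoc, mul_add, mul_one, add_mul, h.s2, zero_add, e212, mul_assoc]
          rw [e1, ← mul_assoc, hZ, zero_mul]
        z2 := by
          have e1 : (1 + (1 : F) • N₁) * N₂ * (1 - (1 : F) • N₁) * N₂ = -((1 + N₁) * ((N₁ * N₂ + N₂ * N₁) * N₂)) := by
            rw [one_smul, mul_assoc, sub_mul, one_mul, mul_sub, mul_assoc (1 + N₁) N₂ N₂, h.s2, mul_zero, zero_sub,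
              mul_assoc, ← mul_assoc N₂, e212]
          have hc : (1 - ρ 1) * (1 + N₁) = (1 + N₁) * (1 - ρ 1) := by
            rw [mul_add, add_mul, mul_one, one_mul, hcN]
          rw [e1, mul_neg, ← mul_assoc, hc, mul_assoc, ← mul_assoc (1 - ρ 1), hZ, zero_mul, mul_zero, neg_zero] }
    exact hS.idem_eq_one hK h2 hmem he hk2 hk3 (halg _) ht
  | succ j ih =>
    intro N₁ h1 N₂ h2 α h hZ
    have hmem := hS.conj_mem h1 h2 1
    refine ih N₂ h2 _ hmem _ h.step ?_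
    rw [anticomm_conj' h.s1 h.s2, one_pow, one_smul, neg_pow, ← pow_two, ← pow_mul, ← pow_succ']
    have hc : (1 - ρ 1) * (-1) ^ (2 ^ j) = (-1) ^ (2 ^ j) * (1 - ρ 1) :=
      (Commute.pow_right (Commute.neg_one_right _) _)
    rw [← mul_assoc, hc, mul_assoc, hZ, mul_zero]

/-- `(L2)` in terms of the representation. -/
theorem RootSet.scalar_of_pre (hS : RootSet F M S) (hk2 : ringChar F ≠ 2) (hk3 : Nat.card F ≠ 3)
    (ht : ∃ t : F, t ≠ 0 ∧ t * t ≠ 1) (halg : ∀ x : k, IsAlgebraic F x) (h1 : N₁ ∈ S) (h2 : N₂ ∈ S)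
    (h : Pre F N₁ N₂ ρ α) (he : ρ 1 ≠ 0) (j : ℕ) (hj : (1 - ρ 1) * (N₁ * N₂ + N₂ * N₁) ^ (2 ^ j) = 0) :
    ∃ c : F, c ≠ 0 ∧ N₁ * N₂ + N₂ * N₁ = c • 1 := by
  have he1 := hS.idem_eq_one' hk2 hk3 ht he halg j N₁ h1 N₂ h2 α h hj
  have hK : KData F N₁ N₂ ρ α :=
    { s1 := h.s1, s2 := h.s2, add := h.add, mul := h.mul, alg := h.alg, c1 := h.c1, c2 := h.c2, a := h.a, a0 := h.a0
      z1 := by rw [he1, sub_self, zero_mul]
      z2 := by rw [he1, sub_self, zero_mul] }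
  obtain ⟨c, hc0, hc⟩ := hS.scalar_of hK h1 h2 he hk2 hk3 (halg _)
  refine ⟨c, hc0, ?_⟩
  have e := h.a
  rw [he1, mul_one, hc, ← mul_one (algebraMap F k c), h.alg, he1] at e
  exact e.symm

/-- `(L2)`: if the non-nilpotent part of the anticommutator is killed by an irreducible polynomial, the anticommutator
is a scalar. -/
theorem RootSet.scalar_of_irreducible (hS : RootSet F M S) (hk2 : ringChar F ≠ 2) (hk3 : Nat.card F ≠ 3)
    (ht : ∃ t : F, t ≠ 0 ∧ t * t ≠ 1) (h1 : N₁ ∈ S) (h2 : N₂ ∈ S) (hnp : ¬ ∃ c : F, N₂ = c • N₁) {π : F[X]}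
    (hπ : Irreducible π) (hπ0 : π.eval 0 ≠ 0) (j : ℕ)
    (hj : (N₁ * N₂ + N₂ * N₁) ^ j * aeval (N₁ * N₂ + N₂ * N₁) π = 0) :
    ∃ c : F, c ≠ 0 ∧ N₁ * N₂ + N₂ * N₁ = c • 1 := by
  have h20 : (2 : F) ≠ 0 := Ring.two_ne_zero hk2
  have : Fact (Irreducible π) := ⟨hπ⟩
  set Z := N₁ * N₂ + N₂ * N₁ with hZ
  have s1 := hS.sq _ h1
  have s2 := hS.sq _ h2
  have hXnd : ¬ π ∣ X := by
    rintro ⟨c, hc⟩
    have hc0 : c.eval 0 = 0 := by
      have := congrArg (eval 0) hc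
      rw [eval_X, eval_mul] at this
      exact (mul_eq_zero.mp this.symm).resolve_left hπ0
    have hXc : X ∣ c := by rw [X_dvd_iff, coeff_zero_eq_eval_zero]; exact hc0
    obtain ⟨c', rfl⟩ := hXc
    have : π * c' = 1 := by
      have h3 : (X : F[X]) * (π * c') = X * 1 := by rw [mul_one]; nth_rewrite 2 [hc]; ring
      exact mul_left_cancel₀ X_ne_zero h3
    exact hπ.not_isUnit (IsUnit.of_mul_eq_one _ this)
  have hcop : IsCoprime (X ^ j : F[X]) π := by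
    apply IsCoprime.pow_left
    exact ((Irreducible.coprime_iff_not_dvd hπ).mpr hXnd).symm
  obtain ⟨a, b, hab⟩ := hcop
  have hjp : aeval Z (X ^ j * π) = 0 := by rw [map_mul, map_pow, aeval_X]; exact hj
  set e := aeval Z (a * X ^ j) with he
  have hee : e = 1 - aeval Z (b * π) := by
    rw [he, eq_sub_iff_add_eq, ← map_add, hab, map_one]
  have hpe : ∀ f : F[X], π ∣ f → aeval Z f * e = 0 := by
    rintro f ⟨c, rfl⟩
    rw [he, ← map_mul]
    have : π * c * (a * X ^ j) = (X ^ j * π) * (c * a) := by ring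
    rw [this, map_mul, hjp, zero_mul]
  have hce : ∀ f : F[X], aeval Z f * e = e * aeval Z f := by
    intro f
    rw [he, ← map_mul, ← map_mul, mul_comm]
  have he2 : e * e = e := by
    nth_rewrite 1 [hee]
    rw [sub_mul, one_mul, hpe _ (Dvd.intro_left _ rfl), sub_zero]
  -- the representation
  let rep : AdjoinRoot π → F[X] := Function.surjInv (AdjoinRoot.mk_surjective (g := π))
  have hrep : ∀ x, AdjoinRoot.mk π (rep x) = x := Function.surjInv_eq _
  let ρ : AdjoinRoot π → A := fun x => aeval Z (rep x) * e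
  have hρ : ∀ f : F[X], ρ (AdjoinRoot.mk π f) = aeval Z f * e := by
    intro f
    have h3 : π ∣ rep (AdjoinRoot.mk π f) - f := by
      rw [← AdjoinRoot.mk_eq_mk, hrep]
    have h4 := hpe _ h3
    rw [map_sub, sub_mul, sub_eq_zero] at h4
    exact h4
  have hρ1 : ρ 1 = e := by
    have := hρ 1
    rw [map_one, map_one, one_mul] at this
    exact this
  have hZN1 : Commute Z N₁ := Z_comm_left s1
  have hZN2 : Commute Z N₂ := Z_comm_right s2
  have hcomm : ∀ (N : A), Commute Z N → ∀ f : F[X], Commute (aeval Z f) N := by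
    intro N hN f
    induction f using Polynomial.induction_on' with
    | add p q hp hq => rw [map_add]; exact hp.add_left hq
    | monomial n c =>
      rw [aeval_monomial]
      exact (show Commute (algebraMap F A c) N from Algebra.commutes c N).mul_left (hN.pow_left n)
  have hpre : Pre F N₁ N₂ ρ (AdjoinRoot.root π) :=
    { s1 := s1
      s2 := s2
      add := by
        intro x y
        obtain ⟨f, rfl⟩ := AdjoinRoot.mk_surjective x
        obtain ⟨g, rfl⟩ := AdjoinRoot.mk_surjective y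
        rw [← map_add, hρ, hρ, hρ, map_add, add_mul]
      mul := by
        intro x y
        obtain ⟨f, rfl⟩ := AdjoinRoot.mk_surjective x
        obtain ⟨g, rfl⟩ := AdjoinRoot.mk_surjective y
        rw [← map_mul, hρ, hρ, hρ, map_mul, mul_assoc (aeval Z f) e, ← mul_assoc e, ← hce, mul_assoc (aeval Z g), he2,
          mul_assoc]
      alg := by
        intro c x
        obtain ⟨f, rfl⟩ := AdjoinRoot.mk_surjective x
        have : algebraMap F (AdjoinRoot π) c * AdjoinRoot.mk π f = AdjoinRoot.mk π (C c * f) := by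
          rw [map_mul]; rfl
        rw [this, hρ, hρ, map_mul, aeval_C, Algebra.smul_def, mul_assoc]
      c1 := by
        intro x
        obtain ⟨f, rfl⟩ := AdjoinRoot.mk_surjective x
        rw [hρ]
        exact (hcomm _ hZN1 f).mul_left (hcomm _ hZN1 _)
      c2 := by
        intro x
        obtain ⟨f, rfl⟩ := AdjoinRoot.mk_surjective x
        rw [hρ]
        exact (hcomm _ hZN2 f).mul_left (hcomm _ hZN2 _)
      a := by
        rw [hρ1, ← AdjoinRoot.mk_X, hρ, aeval_X]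
      a0 := by
        rw [← AdjoinRoot.mk_X, Ne, AdjoinRoot.mk_eq_zero]
        exact hXnd }
  have hZj : (1 - e) * Z ^ j = 0 := by
    have : (1 - e) = aeval Z (b * π) := by rw [hee]; abel
    rw [this]
    have h3 : Z ^ j = aeval Z (X ^ j : F[X]) := by rw [map_pow, aeval_X]
    rw [h3, ← map_mul]
    have h4 : b * π * X ^ j = b * (X ^ j * π) := by ring
    rw [h4, map_mul, hjp, mul_zero]
  have he0 : e ≠ 0 := by
    intro h0
    rw [h0, sub_zero, one_mul] at hZj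
    exact hnp (hS.prop_of_isNilpotent h20 h1 h2 ⟨j, hZj⟩)
  have : FiniteDimensional F (AdjoinRoot π) := (AdjoinRoot.powerBasis hπ.ne_zero).finite
  refine hS.scalar_of_pre hk2 hk3 ht (fun x => Algebra.IsAlgebraic.isAlgebraic x) h1 h2 hpre (by rw [hρ1]; exact he0) j ?_
  rw [hρ1]
  obtain ⟨k, hk⟩ := Nat.exists_eq_add_of_le (Nat.lt_two_pow_self (n := j)).le
  rw [hk, pow_add, ← mul_assoc, hZj, zero_mul]

end Cfsg.Agent.H914.RootPair
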