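import Cfsg.Agent.H914.RootPair3

/-!
# Pairs of root elements, IV: the main result (helper914)
-/

set_option autoImplicit false
set_option linter.unusedSectionVars false

open Polynomial

namespace Cfsg.Agent.H914.RootPair

variable {F : Type*} [Field F] {A : Type*} [Ring A] [Algebra F A]
variable {M : Subgroup Aˣ} {S : Set A} {N₁ N₂ : A}

set_option maxHeartbeats 1000000 in
/-- The anticommutator of the two conjugates. -/
theorem anticomm_third (s1 : N₁ * N₁ = 0) (s2 : N₂ * N₂ = 0) (a : F) :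
    ((1 + a • N₁) * N₂ * (1 - a • N₁)) * ((1 + (1 : F) • N₂) * N₁ * (1 - (1 : F) • N₂)) +
      ((1 + (1 : F) • N₂) * N₁ * (1 - (1 : F) • N₂)) * ((1 + a • N₁) * N₂ * (1 - a • N₁)) =
      (N₁ * N₂ + N₂ * N₁) * ((1 - a • (N₁ * N₂ + N₂ * N₁)) * (1 - a • (N₁ * N₂ + N₂ * N₁))) := by
  have t1 : ∀ x, N₁ * (N₁ * x) = 0 := fun x => by rw [← mul_assoc, s1, zero_mul]
  have t2 : ∀ x, N₂ * (N₂ * x) = 0 := fun x => by rw [← mul_assoc, s2, zero_mul]
  simp only [mul_add, add_mul, mul_sub, sub_mul, mul_assoc, mul_one, one_mul, smul_mul_assoc, mul_smul_comm, t1, t2,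
    s1, s2, mul_zero, zero_mul, smul_zero, one_smul]
  module

/-- A polynomial is a power of `X` times a polynomial with non-zero constant coefficient. -/
theorem exists_X_pow_mul {p : F[X]} (hp : p ≠ 0) :
    ∃ (i : ℕ) (g : F[X]), p = X ^ i * g ∧ g.eval 0 ≠ 0 ∧ g.natDegree ≤ p.natDegree := by
  obtain ⟨g, hg, hg0⟩ := Polynomial.exists_eq_pow_rootMultiplicity_mul_and_not_dvd p hp 0
  rw [C_0, sub_zero] at hg hg0
  refine ⟨_, g, hg, ?_, ?_⟩
  · intro h0
    exact hg0 (by rw [X_dvd_iff, coeff_zero_eq_eval_zero]; exact h0)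
  · exact natDegree_le_of_dvd ⟨_, by rw [mul_comm]; exact hg⟩ hp

/-- A polynomial killing `f` modulo `m`, of degree at most `deg m`. -/
theorem exists_killing {m : F[X]} (hm : m ≠ 0) (f : F[X]) :
    ∃ χ : F[X], χ ≠ 0 ∧ χ.natDegree ≤ m.natDegree ∧ m ∣ χ.comp f := by
  have : Module.Finite F (AdjoinRoot m) := (AdjoinRoot.powerBasis hm).finite
  set T := Algebra.lmul F (AdjoinRoot m) (AdjoinRoot.mk m f) with hT
  refine ⟨T.charpoly, (LinearMap.charpoly_monic T).ne_zero, ?_, ?_⟩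
  · rw [LinearMap.charpoly_natDegree, (AdjoinRoot.powerBasis hm).finrank, AdjoinRoot.powerBasis_dim]
  · rw [← AdjoinRoot.mk_eq_zero]
    have h1 : aeval T T.charpoly = 0 := LinearMap.aeval_self_charpoly T
    have h2 : aeval T T.charpoly = Algebra.lmul F (AdjoinRoot m) (aeval (AdjoinRoot.mk m f) T.charpoly) := by
      rw [hT, aeval_algHom_apply]
    have h3 : aeval (AdjoinRoot.mk m f) T.charpoly = 0 := by
      rw [h2] at h1
      have h4 := congrArg (fun t : Module.End F (AdjoinRoot m) => t 1) h1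
      simpa using h4
    have h5 : AdjoinRoot.mk m (T.charpoly.comp f) = aeval (AdjoinRoot.mk m f) T.charpoly := by
      rw [comp_eq_aeval]
      have := Polynomial.aeval_algHom_apply (AdjoinRoot.mkₐ m) f T.charpoly
      exact this.symm
    rw [h5, h3]

/-- The main induction. -/
theorem RootSet.scalar_of_poly (hS : RootSet F M S) (hk2 : ringChar F ≠ 2) (hk3 : Nat.card F ≠ 3)
    (ht : ∃ t : F, t ≠ 0 ∧ t * t ≠ 1) (d : ℕ) (hd3 : d ≤ 3) :
    ∀ N₁ ∈ S, ∀ N₂ ∈ S, (¬ ∃ c : F, N₂ = c • N₁) → ∀ (j : ℕ) (m : F[X]), m.natDegree ≤ d → m.eval 0 ≠ 0 →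
      (N₁ * N₂ + N₂ * N₁) ^ j * aeval (N₁ * N₂ + N₂ * N₁) m = 0 → ∃ c : F, c ≠ 0 ∧ N₁ * N₂ + N₂ * N₁ = c • 1 := by
  have h20 : (2 : F) ≠ 0 := Ring.two_ne_zero hk2
  induction d with
  | zero =>
    intro N₁ h1 N₂ h2 hnp j m hmd hm0 hZ
    exfalso
    rw [natDegree_eq_zero.mp (Nat.le_zero.mp hmd) |>.choose_spec.symm, eval_C] at hm0
    rw [natDegree_eq_zero.mp (Nat.le_zero.mp hmd) |>.choose_spec.symm, aeval_C, Algebra.algebraMap_eq_smul_one,
      mul_smul_comm, mul_one] at hZ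
    exact hnp (hS.prop_of_isNilpotent h20 h1 h2 ⟨j, (smul_eq_zero.mp hZ).resolve_left hm0⟩)
  | succ d ih =>
    intro N₁ h1 N₂ h2 hnp j m hmd hm0 hZ
    have ihd := ih (by omega)
    by_cases hmd' : m.natDegree ≤ d
    · exact ihd N₁ h1 N₂ h2 hnp j m hmd' hm0 hZ
    have hmdeg : m.natDegree = d + 1 := by omega
    have hmne : m ≠ 0 := by
      rintro rfl
      exact hm0 eval_zero
    by_cases hirr : Irreducible m
    · exact hS.scalar_of_irreducible hk2 hk3 ht h1 h2 hnp hirr hm0 j hZ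
    -- `m` has a root
    have hroot : ∃ r : F, m.eval r = 0 := by
      by_contra hno
      push Not at hno
      have hd1 : d ≠ 0 := by
        rintro rfl
        exact hirr (Polynomial.irreducible_of_degree_eq_one (by rw [degree_eq_natDegree hmne, hmdeg]; rfl))
      apply hirr
      rw [Polynomial.irreducible_iff_roots_eq_zero_of_degree_le_three (by omega) (by omega)]
      rw [Multiset.eq_zero_iff_forall_notMem]
      intro r hr
      exact hno r ((mem_roots hmne).mp hr)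
    obtain ⟨r, hr⟩ := hroot
    have hr0 : r ≠ 0 := by
      rintro rfl
      exact hm0 hr
    obtain ⟨m₂, hm2⟩ := dvd_iff_isRoot.mpr hr
    have hm20 : m₂.eval 0 ≠ 0 := by
      intro h0
      apply hm0
      rw [hm2, eval_mul, h0, mul_zero]
    have hm2ne : m₂ ≠ 0 := by
      rintro rfl
      exact hm20 eval_zero
    have hm2d : m₂.natDegree = d := by
      have := congrArg natDegree hm2
      rw [natDegree_mul (X_sub_C_ne_zero r) hm2ne, natDegree_X_sub_C] at this
      omega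
    -- it is enough to show that `Z ^ j * m₂ (Z) = 0`
    set Z := N₁ * N₂ + N₂ * N₁ with hZdef
    by_cases hgoal : ∃ u : A, u * (1 - r⁻¹ • Z) = 1
    · obtain ⟨u, hu⟩ := hgoal
      refine ihd N₁ h1 N₂ h2 hnp j m₂ hm2d.le hm20 ?_
      rw [← hZdef]
      have e1 : aeval Z m = (-r) • ((1 - r⁻¹ • Z) * aeval Z m₂) := by
        rw [hm2, map_mul, map_sub, aeval_X, aeval_C, Algebra.algebraMap_eq_smul_one, ← smul_mul_assoc]
        congr 1
        rw [smul_sub, smul_smul, neg_mul, mul_inv_cancel₀ hr0]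
        module
      rw [e1, mul_smul_comm] at hZ
      have hZ' := (smul_eq_zero.mp hZ).resolve_left (neg_ne_zero.mpr hr0)
      have hc : Commute (Z ^ j) (1 - r⁻¹ • Z) :=
        (Commute.one_right _).sub_right (((Commute.refl Z).pow_left j).smul_right _)
      rw [← mul_assoc, hc.eq, mul_assoc] at hZ'
      calc Z ^ j * aeval Z m₂ = u * ((1 - r⁻¹ • Z) * (Z ^ j * aeval Z m₂)) := by rw [← mul_assoc, hu, one_mul]
        _ = 0 := by rw [hZ', mul_zero]
    -- the conjugated pair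
    have hm1 := hS.conj_mem h1 h2 r⁻¹
    have hm2' := hS.conj_mem h2 h1 1
    have s1 := hS.sq _ h1
    have s2 := hS.sq _ h2
    have hthird := anticomm_third (N₁ := N₁) (N₂ := N₂) s1 s2 r⁻¹
    rw [← hZdef] at hthird
    have ha1 := anticomm_conj (N₂ := N₂) s1 r⁻¹
    have ha2 := anticomm_conj' (N₁ := N₂) (N₂ := N₁) s2 s1 (1 : F)
    rw [← hZdef] at ha1
    rw [one_pow, add_comm (N₂ * N₁), ← hZdef, one_smul F (Z * Z)] at ha2
    by_cases hprop : ∃ c : F, (1 + (1 : F) • N₂) * N₁ * (1 - (1 : F) • N₂) = c • ((1 + r⁻¹ • N₁) * N₂ * (1 - r⁻¹ • N₁))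
    · obtain ⟨c, hc⟩ := hprop
      rw [hc, mul_smul_comm, smul_mul_assoc, ← smul_add, ha1] at ha2
      -- `c Z = - Z²`
      have e1 : Z ^ 1 * aeval Z (X + C c : F[X]) = 0 := by
        rw [pow_one, map_add, aeval_X, aeval_C, Algebra.algebraMap_eq_smul_one, mul_add, mul_smul_comm, mul_one, ha2]
        abel
      by_cases hc0 : c = 0
      · exfalso
        rw [hc0, C_0, add_zero, aeval_X, pow_one] at e1
        exact hnp (hS.prop_of_isNilpotent h20 h1 h2 ⟨2, by rw [pow_two]; exact e1⟩)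
      · exact hS.scalar_of_irreducible hk2 hk3 ht h1 h2 hnp (π := X + C c)
          (by
            have := Polynomial.irreducible_X_sub_C (-c)
            rwa [C_neg, sub_neg_eq_add] at this)
          (by rw [eval_add, eval_X, eval_C, zero_add]; exact hc0) 1 e1
    · -- a polynomial killing `Z'`
      exfalso
      set f : F[X] := X * ((1 - C r⁻¹ * X) * (1 - C r⁻¹ * X)) with hf
      have hfZ : aeval Z f = Z * ((1 - r⁻¹ • Z) * (1 - r⁻¹ • Z)) := by
        rw [hf, map_mul, map_mul, aeval_X, map_sub, map_one, map_mul, aeval_X, aeval_C, Algebra.algebraMap_eq_smul_one,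
          smul_mul_assoc, one_mul]
      obtain ⟨χ, hχ0, hχd, hχ⟩ := exists_killing hm2ne f
      obtain ⟨i, g, hg, hg0, hgd⟩ := exists_X_pow_mul hχ0
      have hkill : (Z * ((1 - r⁻¹ • Z) * (1 - r⁻¹ • Z))) ^ ((j + 1) + i) *
          aeval (Z * ((1 - r⁻¹ • Z) * (1 - r⁻¹ • Z))) g = 0 := by
        rw [← hfZ]
        have e0 : ∀ p : F[X], aeval Z p ^ (j + 1 + i) * aeval (aeval Z p) g = aeval Z (p ^ (j + 1) * χ.comp p) := by
          intro p
          have e5 : aeval (aeval Z p) g = aeval Z (g.comp p) := by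
            rw [comp_eq_aeval]
            exact Polynomial.aeval_algHom_apply (aeval Z) p g
          rw [e5, ← map_pow, ← map_mul, hg, mul_comp, pow_comp, X_comp, pow_add, mul_assoc]
        have e1 := e0 f
        rw [e1]
        obtain ⟨w, hw⟩ := hχ
        have e2 : f ^ (j + 1) * χ.comp f = (X ^ j * m) * ((-C r⁻¹) * X * (1 - C r⁻¹ * X) * ((1 - C r⁻¹ * X) * (1 - C r⁻¹ * X)) ^ j * w) := by
          have e3 : (X - C r) * (-C r⁻¹) = 1 - C r⁻¹ * X := by
            have : C r * C r⁻¹ = (1 : F[X]) := by rw [← C_mul, mul_inv_cancel₀ hr0, C_1]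
            linear_combination this
          rw [hw, hm2, hf]
          have e4 : (X * ((1 - C r⁻¹ * X) * (1 - C r⁻¹ * X))) ^ (j + 1) * (m₂ * w) =
              X ^ j * X * (((1 - C r⁻¹ * X) * (1 - C r⁻¹ * X)) ^ j * ((1 - C r⁻¹ * X) * (1 - C r⁻¹ * X))) * (m₂ * w) := by
            rw [mul_pow, pow_succ, pow_succ]
          rw [e4]
          nth_rewrite 3 [← e3]
          ring
        rw [e2, map_mul, map_mul (aeval Z) (X ^ j) m, map_pow, aeval_X, hZ, zero_mul]
      have hres := ihd _ hm1 _ hm2' hprop (j + 1 + i) g (by omega) hg0 (by rw [hthird]; exact hkill)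
      rw [hthird] at hres
      obtain ⟨c, hc0, hc⟩ := hres
      apply hgoal
      refine ⟨c⁻¹ • (Z * (1 - r⁻¹ • Z)), ?_⟩
      rw [smul_mul_assoc, mul_assoc, hc, smul_smul, inv_mul_cancel₀ hc0, one_smul]

/-- **Main result**: the anticommutator of two non-proportional elements is a non-zero scalar. -/
theorem RootSet.anticomm_scalar (hS : RootSet F M S) (hk2 : ringChar F ≠ 2) (hk3 : Nat.card F ≠ 3)
    (ht : ∃ t : F, t ≠ 0 ∧ t * t ≠ 1) (h1 : N₁ ∈ S) (h2 : N₂ ∈ S) (hnp : ¬ ∃ c : F, N₂ = c • N₁) :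
    ∃ c : F, c ≠ 0 ∧ N₁ * N₂ + N₂ * N₁ = c • 1 := by
  have s1 := hS.sq _ h1
  have s2 := hS.sq _ h2
  have hZN1 : Commute (N₁ * N₂ + N₂ * N₁) N₁ := Z_comm_left s1
  obtain ⟨χ, hχ0, hχd, hχ⟩ := hS.deg N₁ h1 _ hZN1
  obtain ⟨i, g, hg, hg0, hgd⟩ := exists_X_pow_mul hχ0
  refine hS.scalar_of_poly hk2 hk3 ht 3 le_rfl N₁ h1 N₂ h2 hnp (i + 1) g (by omega) hg0 ?_
  have hcomm : ∀ (N : A), Commute (N₁ * N₂ + N₂ * N₁) N → ∀ f : F[X], Commute (aeval (N₁ * N₂ + N₂ * N₁) f) N := by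
    intro N hN f
    induction f using Polynomial.induction_on' with
    | add p q hp hq => rw [map_add]; exact hp.add_left hq
    | monomial n c =>
      rw [aeval_monomial]
      exact (show Commute (algebraMap F A c) N from Algebra.commutes c N).mul_left (hN.pow_left n)
  have e1 : (N₁ * N₂ + N₂ * N₁) * aeval (N₁ * N₂ + N₂ * N₁) χ = 0 := by
    have h3 : N₁ * aeval (N₁ * N₂ + N₂ * N₁) χ = 0 := by rw [← (hcomm _ hZN1 χ).eq, hχ]
    rw [add_mul, mul_assoc, ← (hcomm N₂ (Z_comm_right s2) χ).eq, ← mul_assoc, h3, zero_mul, mul_assoc, h3, mul_zero,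
      add_zero]
  calc (N₁ * N₂ + N₂ * N₁) ^ (i + 1) * aeval (N₁ * N₂ + N₂ * N₁) g
      = (N₁ * N₂ + N₂ * N₁) * aeval (N₁ * N₂ + N₂ * N₁) χ := by
        rw [hg, map_mul, map_pow, aeval_X, pow_succ', mul_assoc]
    _ = 0 := e1

end Cfsg.Agent.H914.RootPair
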