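import Cfsg.Agent.H914.TensRoot
import Cfsg.Agent.H924.SympForm

/-!
# `Sp₂(q) ⊗ O₃(q)` is maximal in `Sp₆(q)`, `q ≥ 5` odd (helper914)
-/

set_option autoImplicit false
set_option linter.unusedSectionVars false

open Cfsg Cfsg.Geo Matrix
open scoped Matrix MatrixGroups Kronecker

namespace Cfsg.Agent.H914.TensModel

open Cfsg.Agent.H912 Cfsg.Agent.H910 Cfsg.Agent.ClassicalGeometry.SympBasic Cfsg.Agent.H876 Cfsg.Agent.S5652
open Cfsg.Agent.H914.SymOps Cfsg.Agent.H914.RootPair Cfsg.Agent.H919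

variable {F : Type*} [Field F] {m n : ℕ}

theorem hermForm_symplectic {κ : Type} [Fintype κ] [DecidableEq κ] {f : (κ → F) → (κ → F) → F} (h : IsSymplecticForm f) :
    HermForm (RingEquiv.refl F) (-1) f where
  add_left := h.bilinear.add_left
  smul_left := h.bilinear.smul_left
  sigma_sq := fun _ => rfl
  eps := by simp
  herm := fun v w => by rw [h.skew v w]; simp
  nondegenerate := h.nondegenerate

theorem hermForm_symmetric {κ : Type} [Fintype κ] [DecidableEq κ] {f : (κ → F) → (κ → F) → F} (h : IsSymmetricForm f) :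
    HermForm (RingEquiv.refl F) 1 f where
  add_left := h.bilinear.add_left
  smul_left := h.bilinear.smul_left
  sigma_sq := fun _ => rfl
  eps := by simp
  herm := fun v w => by rw [h.symm v w]; simp
  nondegenerate := h.nondegenerate

/-- The bilinear form on the second factor. -/
noncomputable def bil {κ : Type} [Fintype κ] [DecidableEq κ] {f : (κ → F) → (κ → F) → F} (h : IsBilinearForm f) (c : F) :
    LinearMap.BilinForm F (κ → F) :=
  LinearMap.mk₂ F (fun x y => c * f x y) (fun x y v => by rw [h.add_left, mul_add])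
    (fun a x v => by rw [h.smul_left, smul_eq_mul]; ring) (fun v x y => by rw [h.add_right, mul_add])
    (fun a v x => by rw [h.smul_right, smul_eq_mul]; ring)

theorem bil_apply {κ : Type} [Fintype κ] [DecidableEq κ] {f : (κ → F) → (κ → F) → F} (h : IsBilinearForm f) (c : F)
    (x y : κ → F) : bil h c x y = c * f x y := rfl

theorem vec_eq_pt (e : Fin m ⊕ Fin m ≃ Fin 2 × Fin n) (P : GL (Fin m ⊕ Fin m) F) (y : Fin 2 → Fin n → F) :
    vec e P y = (P : Matrix _ _ F) *ᵥ (pt (Pi.single 0 1) (y 0) ∘ e) + (P : Matrix _ _ F) *ᵥ (pt (Pi.single 1 1) (y 1) ∘ e) := by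
  unfold vec
  rw [← mulVec_add]
  congr 1
  funext i
  simp only [Pi.add_apply, Function.comp_apply, pt]
  generalize e i = p
  obtain ⟨a, b⟩ := p
  fin_cases a <;> simp

theorem vec_injective {e : Fin m ⊕ Fin m ≃ Fin 2 × Fin n} {P : GL (Fin m ⊕ Fin m) F} :
    Function.Injective (vec e P) := by
  intro y y' hy
  unfold vec at hy
  have h1 := congrArg (fun v => ((P⁻¹ : GL (Fin m ⊕ Fin m) F) : Matrix (Fin m ⊕ Fin m) (Fin m ⊕ Fin m) F) *ᵥ v) hy
  simp only [mulVec_mulVec] at h1
  rw [Units.inv_mul, one_mulVec, one_mulVec] at h1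
  funext i j
  have := congrFun h1 (e.symm (i, j))
  simpa using this

/-- The setup from a tensor form structure. -/
theorem exists_setup {e : Fin m ⊕ Fin m ≃ Fin 2 × Fin n} {P : GL (Fin m ⊕ Fin m) F}
    {f₁ : (Fin 2 → F) → (Fin 2 → F) → F} {f₂ : (Fin n → F) → (Fin n → F) → F} (h1 : IsSymplecticForm f₁)
    (h2 : IsSymmetricForm f₂) (h : IsTensorFormStructure id (sympForm m F) f₁ f₂ e P) (two : (2 : F) ≠ 0)
    (big : ∃ t : F, t ≠ 0 ∧ t * t ≠ 1) :
    ∃ B : LinearMap.BilinForm F (Fin n → F), ∀ M : Subgroup (GL (Fin m ⊕ Fin m) F),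
      tensorProductSubgroup 2 n e P ⊓ spGL m F ≤ M → M ≤ spGL m F → Setup e P B M := by
  obtain ⟨c, hc, hform⟩ := form_pt (σ := RingEquiv.refl F) (hermForm_symplectic h1) (hermForm_symmetric h2) h
  set γ := f₁ (Pi.single 0 1) (Pi.single 1 1) with hγ
  have hskew : f₁ (Pi.single 1 1) (Pi.single 0 1) = -γ := h1.skew _ _
  have hγ0 : γ ≠ 0 := by
    intro h0
    obtain ⟨-, x, hx⟩ := h1.nondegenerate (Pi.single 0 1) (by simp)
    apply hx
    have hxe : x = x 0 • (Pi.single 0 1 : Fin 2 → F) + x 1 • (Pi.single 1 1 : Fin 2 → F) := by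
      funext i
      fin_cases i <;> simp
    rw [hxe, h1.bilinear.add_right, h1.bilinear.smul_right, h1.bilinear.smul_right, h1.alternating, ← hγ, h0]
    ring
  have hbadd := sympForm_add_left (F := F) (m := m)
  set B := bil h2.bilinear (c * γ) with hB
  have form : ∀ y y', sympForm m F (vec e P y) (vec e P y') = B (y 0) (y' 1) - B (y 1) (y' 0) := by
    intro y y'
    rw [vec_eq_pt, vec_eq_pt, sympForm_add_left, sympForm_add_right, sympForm_add_right, hform, hform, hform, hform,
      h1.alternating, h1.alternating, ← hγ, hskew, hB, bil_apply, bil_apply]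
    ring
  have hnd : ∀ x, (∀ y, B x y = 0) → x = 0 := by
    intro x hx
    by_contra hx0
    obtain ⟨-, y, hy⟩ := h2.nondegenerate x hx0
    apply hy
    have := hx y
    rw [hB, bil_apply] at this
    exact (mul_eq_zero.mp this).resolve_left (mul_ne_zero hc hγ0)
  refine ⟨B, fun M hHM hM =>
    { form := form
      symm := fun x y => by rw [hB, bil_apply, bil_apply, h2.symm]
      nd := hnd
      two := two
      big := big
      le := hM
      tens := ?_ }⟩
  intro a r ha hr g hg
  apply hHM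
  refine Subgroup.mem_inf.mpr ⟨?_, ?_⟩
  · rw [mem_tensorProductSubgroup_iff]
    have hrinj : IsUnit r := by
      rw [← Matrix.mulVec_injective_iff_isUnit]
      intro x y hxy
      have h3 : x - y = 0 := by
        apply hnd
        intro w
        rw [← hr (x - y) w, mulVec_sub]
        have : r *ᵥ x = r *ᵥ y := hxy
        rw [this, sub_self, map_zero]
        rfl
      exact sub_eq_zero.mp h3
    obtain ⟨R, hR⟩ := hrinj
    exact ⟨Matrix.nonsingInvUnit a (by rw [ha]; exact isUnit_one), R, by rw [hg, hR]; rfl⟩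
  · rw [Cfsg.Agent.H924.mem_spGL]
    intro u v
    obtain ⟨y, rfl⟩ := vec_surj (e := e) (P := P) u
    obtain ⟨y', rfl⟩ := vec_surj (e := e) (P := P) v
    rw [hg, ← blk_tens, blk_mulVec, blk_mulVec, form, form]
    simp only [Fin.sum_univ_two, Matrix.of_apply, smul_mulVec, map_add, map_smul, LinearMap.add_apply,
      LinearMap.smul_apply, smul_eq_mul, hr]
    rw [det_fin_two] at ha
    linear_combination (B (y 0) (y' 1) - B (y 1) (y' 0)) * ha

/-- The symplectic group does not preserve the tensor decomposition. -/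
theorem not_spGL_le {e : Fin m ⊕ Fin m ≃ Fin 2 × Fin n} {P : GL (Fin m ⊕ Fin m) F}
    {B : LinearMap.BilinForm F (Fin n → F)} {M : Subgroup (GL (Fin m ⊕ Fin m) F)} (h : Setup e P B M) {w w' : Fin n → F}
    (hw : B w w' ≠ 0) (hli : ∀ c : F, w ≠ c • w') : ¬ spGL m F ≤ tensorProductSubgroup 2 n e P := by
  intro hle
  have h1 := hle (tGL_mem (tt e P ![0, 1] w') 1)
  rw [mem_tensorProductSubgroup_iff] at h1
  obtain ⟨a, b, hab⟩ := h1
  have h2 : (tGL (tt e P ![0, 1] w') 1 : Matrix _ _ F) *ᵥ tt e P ![1, 0] w = vec e P ![w, B w w' • w'] := by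
    rw [tGL_mulVec, h.tt_form]
    unfold tt
    rw [← vec_smul, ← vec_add]
    congr 1
    funext i
    fin_cases i <;> simp [dt]
  rw [hab, tens_tt] at h2
  have h3 : (fun i => ((a : Matrix (Fin 2) (Fin 2) F) *ᵥ ![1, 0]) i • ((b : Matrix (Fin n) (Fin n) F) *ᵥ w)) = ![w, B w w' • w'] :=
    vec_injective h2
  have e0 := congrFun h3 0
  have e1 := congrFun h3 1
  simp only [Matrix.cons_val_zero, Matrix.cons_val_one, Matrix.cons_val_fin_one] at e0 e1
  set p := ((a : Matrix (Fin 2) (Fin 2) F) *ᵥ ![1, 0]) 0 with hp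
  set q := ((a : Matrix (Fin 2) (Fin 2) F) *ᵥ ![1, 0]) 1 with hq
  set x := (b : Matrix (Fin n) (Fin n) F) *ᵥ w with hx
  have hq0 : q ≠ 0 := by
    intro h0
    rw [h0, zero_smul] at e1
    rcases smul_eq_zero.mp e1.symm with h4 | h4
    · exact hw h4
    · apply hw
      rw [h4, map_zero]
  apply hli (p * q⁻¹ * B w w')
  rw [mul_smul, ← e1, smul_smul, mul_assoc, inv_mul_cancel₀ hq0, mul_one, e0]

/-- **Part (7) of S5804.** -/
theorem tensor_two_three_maximal [Finite F] (hodd : (2 : F) ≠ 0) (hq : 5 ≤ Nat.card F)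
    (e : Fin 3 ⊕ Fin 3 ≃ Fin 2 × Fin 3) (P : GL (Fin 3 ⊕ Fin 3) F)
    (f₁ : (Fin 2 → F) → (Fin 2 → F) → F) (f₂ : (Fin 3 → F) → (Fin 3 → F) → F) (h1 : IsSymplecticForm f₁)
    (h2 : IsSymmetricForm f₂) (h : IsTensorFormStructure id (sympForm 3 F) f₁ f₂ e P) :
    IsMaximalIn (spGL 3 F) (tensorProductSubgroup 2 3 e P ⊓ spGL 3 F) := by
  classical
  have := Fintype.ofFinite F
  have big : ∃ t : F, t ≠ 0 ∧ t * t ≠ 1 := by
    by_contra hno
    push Not at hno
    have hsub : (Finset.univ : Finset F) ⊆ {0, 1, -1} := by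
      intro t _
      by_cases ht : t = 0
      · simp [ht]
      · have h3 : (t - 1) * (t + 1) = 0 := by linear_combination hno t ht
        rcases mul_eq_zero.mp h3 with h4 | h4
        · simp [sub_eq_zero.mp h4]
        · simp [eq_neg_of_add_eq_zero_left h4]
    have h5 := Finset.card_le_card hsub
    rw [Finset.card_univ, ← Nat.card_eq_fintype_card] at h5
    have h6 : ({0, 1, -1} : Finset F).card ≤ 3 := Finset.card_le_three
    omega
  have hk2 : ringChar F ≠ 2 := by
    intro h3
    apply hodd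
    have := CharP.cast_eq_zero F (ringChar F)
    rw [h3] at this
    exact_mod_cast this
  obtain ⟨B, hB⟩ := exists_setup h1 h2 h hodd big
  have hS0 := hB _ le_rfl inf_le_right
  -- an orthogonal basis
  have hBs : LinearMap.IsSymm B := ⟨fun x y => by simpa using hS0.symm x y⟩
  have : Invertible (2 : F) := invertibleOfNonzero hodd
  obtain ⟨v, hv⟩ := LinearMap.BilinForm.exists_orthogonal_basis hBs
  have hd : Module.finrank F (Fin 3 → F) = 3 := Module.finrank_fin_fun F
  have hsep : LinearMap.SeparatingLeft B := fun x hx => hS0.nd x hx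
  have hne : ∀ i, B (v i) (v i) ≠ 0 := fun i => hv.not_isOrtho_basis_self_of_separatingLeft hsep i
  have hor : ∀ i j, i ≠ j → B (v i) (v j) = 0 := fun i j hij => hv hij
  let f : Fin 3 → Fin (Module.finrank F (Fin 3 → F)) := Fin.cast hd.symm
  have hf : ∀ i j, i ≠ j → f i ≠ f j := fun i j hij h => hij (Fin.cast_injective _ h)
  have htri : Tri B (v (f 0)) (v (f 1)) (v (f 2)) :=
    ⟨hne _, hne _, hne _, hor _ _ (hf _ _ (by decide)), hor _ _ (hf _ _ (by decide)), hor _ _ (hf _ _ (by decide))⟩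
  refine ⟨lt_of_le_of_ne inf_le_right ?_, ?_⟩
  · intro heq
    obtain ⟨c, hc0, hc⟩ := hS0.good.exists_c htri.xx htri.yy
    refine not_spGL_le hS0 (w := v (f 0) + c • v (f 1)) (w' := v (f 1)) ?_ ?_ (by rw [← heq]; exact inf_le_left)
    · rw [map_add, map_smul, LinearMap.add_apply, LinearMap.smul_apply, htri.xy, zero_add, smul_eq_mul]
      exact mul_ne_zero hc0 htri.yy
    · intro d hd'
      have h3 := congrArg (fun z => B z (v (f 0))) hd'
      simp only [map_add, map_smul, LinearMap.add_apply, LinearMap.smul_apply, hS0.symm (v (f 1)) (v (f 0)), htri.xy,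
        smul_zero, add_zero] at h3
      exact htri.xx h3
  · intro M hHM hM
    have hS := hB M hHM hM
    by_cases hsc : ∀ T ∈ hS.Smod, ∃ c : F, ∀ w, T w = c • w
    · left
      refine le_antisymm ?_ hHM
      exact le_inf (hS.le_of_scalar (by norm_num) le_rfl hsc hk2 (by omega)) hM
    · right
      push Not at hsc
      obtain ⟨T, hT, hns⟩ := hsc
      obtain ⟨e₀, e', z, h00, h11, h01, h0z, h1z, hzz, hspan, hv'⟩ := hS.good.main hd htri hT (by
        rintro ⟨c, hc⟩
        obtain ⟨w, hw⟩ := hns c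
        exact hw (hc w))
      exact le_antisymm hM (spGL_le_of_UU (hS.UU_all h00 h11 h01 h0z h1z hzz hspan hv'))

end Cfsg.Agent.H914.TensModel
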