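import Cfsg.Agent.H912.TensForm4
import Cfsg.Agent.H914.RootPair4
import Cfsg.Agent.H914.SymOps

/-!
# Block matrices for the tensor product of a plane and a space (helper914)
-/

set_option autoImplicit false
set_option linter.unusedSectionVars false

open Cfsg Cfsg.Geo Matrix
open scoped Matrix MatrixGroups Kronecker

namespace Cfsg.Agent.H914.TensModel

open Cfsg.Agent.H912

variable {F : Type*} [Field F] {ι : Type} [Fintype ι] [DecidableEq ι] {n : ℕ}

/-- Conjugation by an invertible matrix. -/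
noncomputable def conjA (P : GL ι F) : Matrix ι ι F ≃ₐ[F] Matrix ι ι F where
  toFun x := (P : Matrix ι ι F) * x * ((P⁻¹ : GL ι F) : Matrix ι ι F)
  invFun x := ((P⁻¹ : GL ι F) : Matrix ι ι F) * x * (P : Matrix ι ι F)
  left_inv x := by
    show ((P⁻¹ : GL ι F) : Matrix ι ι F) * ((P : Matrix ι ι F) * x * ((P⁻¹ : GL ι F) : Matrix ι ι F)) * (P : Matrix ι ι F) = x
    rw [mul_assoc, mul_assoc, Units.inv_mul, mul_one, ← mul_assoc, Units.inv_mul, one_mul]
  right_inv x := by
    show (P : Matrix ι ι F) * (((P⁻¹ : GL ι F) : Matrix ι ι F) * x * (P : Matrix ι ι F)) * ((P⁻¹ : GL ι F) : Matrix ι ι F) = x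
    rw [mul_assoc, mul_assoc, Units.mul_inv, mul_one, ← mul_assoc, Units.mul_inv, one_mul]
  map_mul' x y := by
    show (P : Matrix ι ι F) * (x * y) * ((P⁻¹ : GL ι F) : Matrix ι ι F) =
      (P : Matrix ι ι F) * x * ((P⁻¹ : GL ι F) : Matrix ι ι F) * ((P : Matrix ι ι F) * y * ((P⁻¹ : GL ι F) : Matrix ι ι F))
    rw [mul_assoc _ _ ((P : Matrix ι ι F) * y * _), ← mul_assoc ((P⁻¹ : GL ι F) : Matrix ι ι F), ← mul_assoc ((P⁻¹ : GL ι F) : Matrix ι ι F),
      Units.inv_mul, one_mul]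
    simp only [mul_assoc]
  map_add' x y := by
    show (P : Matrix ι ι F) * (x + y) * ((P⁻¹ : GL ι F) : Matrix ι ι F) = _
    rw [mul_add, add_mul]
  commutes' c := by
    show (P : Matrix ι ι F) * (algebraMap F (Matrix ι ι F) c) * ((P⁻¹ : GL ι F) : Matrix ι ι F) = _
    rw [← Algebra.commutes, mul_assoc, Units.mul_inv, mul_one]

/-- The matrix with given blocks. -/
noncomputable def blk (e : ι ≃ Fin 2 × Fin n) (P : GL ι F) :
    Matrix (Fin 2) (Fin 2) (Matrix (Fin n) (Fin n) F) ≃ₐ[F] Matrix ι ι F :=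
  ((Matrix.compAlgEquiv (Fin 2) (Fin n) F F).trans (Matrix.reindexAlgEquiv F F e.symm)).trans (conjA P)

variable (e : ι ≃ Fin 2 × Fin n) (P : GL ι F)

theorem blk_tens (a : Matrix (Fin 2) (Fin 2) F) (b : Matrix (Fin n) (Fin n) F) :
    blk e P (Matrix.of fun i j => a i j • b) = tens e P a b := rfl

/-- The vector with two given components. -/
noncomputable def vec (y : Fin 2 → Fin n → F) : ι → F := (P : Matrix ι ι F) *ᵥ (fun i => y (e i).1 (e i).2)

theorem blk_mulVec (X : Matrix (Fin 2) (Fin 2) (Matrix (Fin n) (Fin n) F)) (y : Fin 2 → Fin n → F) :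
    blk e P X *ᵥ vec e P y = vec e P (fun i => ∑ j, X i j *ᵥ y j) := by
  show ((P : Matrix ι ι F) * Matrix.reindexAlgEquiv F F e.symm (Matrix.comp _ _ _ _ _ X) * ((P⁻¹ : GL ι F) : Matrix ι ι F)) *ᵥ _ = _
  unfold vec
  rw [mulVec_mulVec, mul_assoc _ _ (P : Matrix ι ι F), Units.inv_mul, mul_one, ← mulVec_mulVec]
  congr 1
  funext i
  rw [mulVec, dotProduct]
  simp only [coe_reindexAlgEquiv, reindex_apply, submatrix_apply, Equiv.symm_symm, Matrix.comp_apply]
  rw [e.sum_comp (fun p => X (e i).1 p.1 (e i).2 p.2 * y p.1 p.2), Fintype.sum_prod_type, Finset.sum_apply]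
  rfl

end Cfsg.Agent.H914.TensModel
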