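import Cfsg.Agent.H914.TensModel
import Cfsg.Agent.H910.Transv

/-!
# Overgroups of `SL₂ ⊗ O₃` in the symplectic group: transvections (helper914)
-/

set_option autoImplicit false
set_option linter.unusedSectionVars false

open Cfsg Cfsg.Geo Matrix
open scoped Matrix MatrixGroups Kronecker

namespace Cfsg.Agent.H914.TensModel

open Cfsg.Agent.H912 Cfsg.Agent.H910 Cfsg.Agent.ClassicalGeometry.SympBasic Cfsg.Agent.H876 Cfsg.Agent.S5652
open Cfsg.Agent.H914.SymOps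

variable {F : Type*} [Field F] {m n : ℕ}

/-- The hypotheses on the overgroup. -/
structure Setup (e : Fin m ⊕ Fin m ≃ Fin 2 × Fin n) (P : GL (Fin m ⊕ Fin m) F)
    (B : LinearMap.BilinForm F (Fin n → F)) (M : Subgroup (GL (Fin m ⊕ Fin m) F)) : Prop where
  form : ∀ y y', sympForm m F (vec e P y) (vec e P y') = B (y 0) (y' 1) - B (y 1) (y' 0)
  symm : ∀ x y, B x y = B y x
  nd : ∀ x, (∀ y, B x y = 0) → x = 0
  two : (2 : F) ≠ 0
  big : ∃ t : F, t ≠ 0 ∧ t * t ≠ 1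
  le : M ≤ spGL m F
  tens : ∀ (a : Matrix (Fin 2) (Fin 2) F) (r : Matrix (Fin n) (Fin n) F), a.det = 1 →
    (∀ w w', B (r *ᵥ w) (r *ᵥ w') = B w w') → ∀ g : GL (Fin m ⊕ Fin m) F, (g : Matrix _ _ F) = tens e P a r → g ∈ M

variable {e : Fin m ⊕ Fin m ≃ Fin 2 × Fin n} {P : GL (Fin m ⊕ Fin m) F}
    {B : LinearMap.BilinForm F (Fin n → F)} {M : Subgroup (GL (Fin m ⊕ Fin m) F)}

theorem vec_add (y y' : Fin 2 → Fin n → F) : vec e P (y + y') = vec e P y + vec e P y' := by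
  unfold vec
  rw [← mulVec_add]
  rfl

theorem vec_smul (c : F) (y : Fin 2 → Fin n → F) : vec e P (c • y) = c • vec e P y := by
  unfold vec
  rw [← mulVec_smul]
  rfl

theorem vec_surj (v : Fin m ⊕ Fin m → F) : ∃ y, v = vec e P y := by
  refine ⟨fun i j => ((((P⁻¹ : GL (Fin m ⊕ Fin m) F) : Matrix _ _ F) *ᵥ v) (e.symm (i, j))), ?_⟩
  unfold vec
  have : (fun i => (((P⁻¹ : GL (Fin m ⊕ Fin m) F) : Matrix _ _ F) *ᵥ v) (e.symm ((e i).1, (e i).2))) =
      ((P⁻¹ : GL (Fin m ⊕ Fin m) F) : Matrix _ _ F) *ᵥ v := by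
    funext i
    rw [Prod.mk.eta, Equiv.symm_apply_apply]
  rw [this, mulVec_mulVec, Units.mul_inv, one_mulVec]

/-- The upper unitriangular part. -/
noncomputable def up (e : Fin m ⊕ Fin m ≃ Fin 2 × Fin n) (P : GL (Fin m ⊕ Fin m) F) (b : Matrix (Fin n) (Fin n) F) :
    Matrix (Fin m ⊕ Fin m) (Fin m ⊕ Fin m) F := blk e P !![0, b; 0, 0]

theorem up_eq_tens (b : Matrix (Fin n) (Fin n) F) : up e P b = tens e P !![0, 1; 0, 0] b := by
  rw [← blk_tens, up]
  congr 1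
  ext i j
  fin_cases i <;> fin_cases j <;> simp

theorem up_mulVec (b : Matrix (Fin n) (Fin n) F) (y : Fin 2 → Fin n → F) :
    up e P b *ᵥ vec e P y = vec e P ![b *ᵥ y 1, 0] := by
  rw [up, blk_mulVec]
  congr 1
  funext i
  fin_cases i
  · simp [Fin.sum_univ_two]
  · simp [Fin.sum_univ_two]

theorem up_add (b b' : Matrix (Fin n) (Fin n) F) : up e P (b + b') = up e P b + up e P b' := by
  rw [up, up, up, ← map_add]
  congr 1
  ext i j
  fin_cases i <;> fin_cases j <;> simp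

theorem up_smul (c : F) (b : Matrix (Fin n) (Fin n) F) : up e P (c • b) = c • up e P b := by
  rw [up, up, ← map_smul]
  congr 1
  ext i j
  fin_cases i <;> fin_cases j <;> simp

theorem up_mul (b b' : Matrix (Fin n) (Fin n) F) : up e P b * up e P b' = 0 := by
  rw [up_eq_tens, up_eq_tens, tens_mul]
  have : (!![0, 1; 0, 0] : Matrix (Fin 2) (Fin 2) F) * !![0, 1; 0, 0] = 0 := by
    ext i j
    fin_cases i <;> fin_cases j <;> simp
  rw [this, ← blk_tens]
  have h2 : (Matrix.of fun i j => (0 : Matrix (Fin 2) (Fin 2) F) i j • (b * b')) = 0 := by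
    ext i j
    simp
  rw [h2, map_zero]

/-- The unit `a ⊗ r`. -/
noncomputable def tU (e : Fin m ⊕ Fin m ≃ Fin 2 × Fin n) (P : GL (Fin m ⊕ Fin m) F) (a : GL (Fin 2) F) (r : GL (Fin n) F) :
    GL (Fin m ⊕ Fin m) F where
  val := Cfsg.Agent.H912.tens e P a r
  inv := Cfsg.Agent.H912.tens e P ((a⁻¹ : GL (Fin 2) F) : Matrix _ _ F) ((r⁻¹ : GL (Fin n) F) : Matrix _ _ F)
  val_inv := by rw [tens_mul, Units.mul_inv, Units.mul_inv, tens_one]
  inv_val := by rw [tens_mul, Units.inv_mul, Units.inv_mul, tens_one]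

theorem tU_conj (a : GL (Fin 2) F) (r : GL (Fin n) F) (x : Matrix (Fin 2) (Fin 2) F) (y : Matrix (Fin n) (Fin n) F) :
    (tU e P a r : Matrix _ _ F) * Cfsg.Agent.H912.tens e P x y * (((tU e P a r)⁻¹ : GL (Fin m ⊕ Fin m) F) : Matrix _ _ F) =
      Cfsg.Agent.H912.tens e P ((a : Matrix _ _ F) * x * ((a⁻¹ : GL (Fin 2) F) : Matrix _ _ F))
        ((r : Matrix _ _ F) * y * ((r⁻¹ : GL (Fin n) F) : Matrix _ _ F)) := by
  show Cfsg.Agent.H912.tens e P a r * _ * Cfsg.Agent.H912.tens e P _ _ = _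
  rw [tens_mul, tens_mul]

namespace Setup

theorem one_isom (h : Setup e P B M) (w w' : Fin n → F) :
    B ((1 : Matrix (Fin n) (Fin n) F) *ᵥ w) ((1 : Matrix (Fin n) (Fin n) F) *ᵥ w') = B w w' := by
  rw [one_mulVec, one_mulVec]

/-- The operators `T` with `1 + E₀₁ ⊗ T ∈ M`. -/
noncomputable def Smod (h : Setup e P B M) : Submodule F ((Fin n → F) →ₗ[F] (Fin n → F)) where
  carrier := {T | ∃ g ∈ M, (g : Matrix _ _ F) = 1 + up e P (LinearMap.toMatrix' T)}
  zero_mem' := ⟨1, M.one_mem, by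
    rw [map_zero, up_eq_tens, ← blk_tens]
    have h2 : (Matrix.of fun i j => (!![0, 1; 0, 0] : Matrix (Fin 2) (Fin 2) F) i j • (0 : Matrix (Fin n) (Fin n) F)) = 0 := by
      ext i j
      simp
    rw [h2, map_zero, add_zero]
    rfl⟩
  add_mem' := by
    rintro T T' ⟨g, hg, e1⟩ ⟨g', hg', e2⟩
    refine ⟨g * g', M.mul_mem hg hg', ?_⟩
    rw [Units.val_mul, e1, e2, mul_add, mul_one, add_mul, one_mul, up_mul, map_add, up_add, add_zero, add_assoc]
  smul_mem' := by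
    have hneg : ∀ T : (Fin n → F) →ₗ[F] (Fin n → F), (∃ g ∈ M, (g : Matrix _ _ F) = 1 + up e P (LinearMap.toMatrix' T)) →
        ∃ g ∈ M, (g : Matrix _ _ F) = 1 - up e P (LinearMap.toMatrix' T) := by
      rintro T ⟨g, hg, e1⟩
      refine ⟨g⁻¹, M.inv_mem hg, ?_⟩
      have : (g : Matrix _ _ F) * (1 - up e P (LinearMap.toMatrix' T)) = 1 := by
        rw [e1, mul_sub, mul_one, add_mul, one_mul, up_mul, add_zero, add_sub_cancel_right]
      calc ((g⁻¹ : GL (Fin m ⊕ Fin m) F) : Matrix _ _ F) =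
          ((g⁻¹ : GL (Fin m ⊕ Fin m) F) : Matrix _ _ F) * ((g : Matrix _ _ F) * (1 - up e P (LinearMap.toMatrix' T))) := by
            rw [this, mul_one]
        _ = _ := by rw [← mul_assoc, Units.inv_mul, one_mul]
    have hsq : ∀ (c : F) (T : (Fin n → F) →ₗ[F] (Fin n → F)),
        (∃ g ∈ M, (g : Matrix _ _ F) = 1 + up e P (LinearMap.toMatrix' T)) →
        ∃ g ∈ M, (g : Matrix _ _ F) = 1 + (c * c) • up e P (LinearMap.toMatrix' T) := by
      rintro c T ⟨g, hg, e1⟩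
      by_cases hc : c = 0
      · exact ⟨1, M.one_mem, by rw [hc, mul_zero, zero_smul, add_zero]; rfl⟩
      let a : GL (Fin 2) F := ⟨!![c, 0; 0, c⁻¹], !![c⁻¹, 0; 0, c], by
        ext i j; fin_cases i <;> fin_cases j <;> simp [hc], by
        ext i j; fin_cases i <;> fin_cases j <;> simp [hc]⟩
      have ha : tU e P a 1 ∈ M := h.tens a 1 (by simp [a, hc]) h.one_isom _ rfl
      refine ⟨tU e P a 1 * g * (tU e P a 1)⁻¹, M.mul_mem (M.mul_mem ha hg) (M.inv_mem ha), ?_⟩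
      rw [Units.val_mul, Units.val_mul, e1, mul_add, mul_one, add_mul, Units.mul_inv, up_eq_tens, tU_conj]
      congr 1
      rw [← up_eq_tens, ← up_smul, up_eq_tens]
      have h1 : (a : Matrix (Fin 2) (Fin 2) F) * !![0, 1; 0, 0] * ((a⁻¹ : GL (Fin 2) F) : Matrix (Fin 2) (Fin 2) F) = (c * c) • !![0, 1; 0, 0] := by
        show !![c, 0; 0, c⁻¹] * !![0, 1; 0, 0] * !![c⁻¹, 0; 0, c] = _
        ext i j; fin_cases i <;> fin_cases j <;> simp
      rw [h1, inv_one, Units.val_one, one_mul, mul_one, ← blk_tens, ← blk_tens]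
      congr 1
      ext i j : 2
      simp only [Matrix.of_apply, Matrix.smul_apply, smul_smul, smul_eq_mul, mul_comm]
    rintro c T hT
    obtain ⟨g1, hg1, e1⟩ := hsq ((c + 1) / 2) T hT
    obtain ⟨g2, hg2, e2⟩ := hsq ((c - 1) / 2) T hT
    refine ⟨g1 * g2⁻¹, M.mul_mem hg1 (M.inv_mem hg2), ?_⟩
    have e3 : ((g2⁻¹ : GL (Fin m ⊕ Fin m) F) : Matrix _ _ F) = 1 - ((c - 1) / 2 * ((c - 1) / 2)) • up e P (LinearMap.toMatrix' T) := by
      have : (g2 : Matrix _ _ F) * (1 - ((c - 1) / 2 * ((c - 1) / 2)) • up e P (LinearMap.toMatrix' T)) = 1 := by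
        rw [e2, mul_sub, mul_one, add_mul, one_mul, smul_mul_smul_comm, up_mul, smul_zero, add_zero, add_sub_cancel_right]
      calc ((g2⁻¹ : GL (Fin m ⊕ Fin m) F) : Matrix _ _ F) =
          ((g2⁻¹ : GL (Fin m ⊕ Fin m) F) : Matrix _ _ F) * ((g2 : Matrix _ _ F) * (1 - ((c - 1) / 2 * ((c - 1) / 2)) • up e P (LinearMap.toMatrix' T))) := by
            rw [this, mul_one]
        _ = _ := by rw [← mul_assoc, Units.inv_mul, one_mul]
    rw [Units.val_mul, e1, e3, mul_sub, mul_one, add_mul, one_mul, smul_mul_smul_comm, up_mul, smul_zero, add_zero,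
      map_smul, up_smul]
    have h2 := h.two
    have h3 : c • up e P (LinearMap.toMatrix' T) = ((c + 1) / 2 * ((c + 1) / 2) - (c - 1) / 2 * ((c - 1) / 2)) • up e P (LinearMap.toMatrix' T) := by
      congr 1
      field_simp
      ring
    rw [h3]
    module

theorem mem_Smod (h : Setup e P B M) {T : (Fin n → F) →ₗ[F] (Fin n → F)} :
    T ∈ h.Smod ↔ ∃ g ∈ M, (g : Matrix _ _ F) = 1 + up e P (LinearMap.toMatrix' T) := Iff.rfl

end Setup

end Cfsg.Agent.H914.TensModel
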