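import Cfsg.Agent.H914.TensTransv

/-!
# Overgroups of `SL₂ ⊗ O₃` in the symplectic group: transvections, II (helper914)
-/

set_option autoImplicit false
set_option linter.unusedSectionVars false

open Cfsg Cfsg.Geo Matrix
open scoped Matrix MatrixGroups Kronecker

namespace Cfsg.Agent.H914.TensModel

open Cfsg.Agent.H912 Cfsg.Agent.H910 Cfsg.Agent.ClassicalGeometry.SympBasic Cfsg.Agent.H876 Cfsg.Agent.S5652
open Cfsg.Agent.H914.SymOps

variable {F : Type*} [Field F] {m n : ℕ}
variable {e : Fin m ⊕ Fin m ≃ Fin 2 × Fin n} {P : GL (Fin m ⊕ Fin m) F}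
    {B : LinearMap.BilinForm F (Fin n → F)} {M : Subgroup (GL (Fin m ⊕ Fin m) F)}

/-- The pure tensor. -/
noncomputable def tt (e : Fin m ⊕ Fin m ≃ Fin 2 × Fin n) (P : GL (Fin m ⊕ Fin m) F) (u : Fin 2 → F) (w : Fin n → F) :
    Fin m ⊕ Fin m → F := vec e P (fun i => u i • w)

theorem tt_add_left (u u' : Fin 2 → F) (w : Fin n → F) : tt e P (u + u') w = tt e P u w + tt e P u' w := by
  unfold tt
  rw [← vec_add]
  congr 1
  funext i
  simp [add_smul]

theorem tt_smul_left (c : F) (u : Fin 2 → F) (w : Fin n → F) : tt e P (c • u) w = c • tt e P u w := by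
  unfold tt
  rw [← vec_smul]
  congr 1
  funext i
  simp [mul_smul]

theorem tt_add_right (u : Fin 2 → F) (w w' : Fin n → F) : tt e P u (w + w') = tt e P u w + tt e P u w' := by
  unfold tt
  rw [← vec_add]
  congr 1
  funext i
  simp

theorem tt_smul_right (c : F) (u : Fin 2 → F) (w : Fin n → F) : tt e P u (c • w) = c • tt e P u w := by
  unfold tt
  rw [← vec_smul]
  congr 1
  funext i
  exact smul_comm _ _ _

theorem tens_tt (a : Matrix (Fin 2) (Fin 2) F) (r : Matrix (Fin n) (Fin n) F) (u : Fin 2 → F) (w : Fin n → F) :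
    tens e P a r *ᵥ tt e P u w = tt e P (a *ᵥ u) (r *ᵥ w) := by
  unfold tt
  rw [← blk_tens, blk_mulVec]
  congr 1
  funext i
  simp only [Matrix.of_apply, Matrix.mulVec_smul, Matrix.smul_mulVec, smul_smul, ← Finset.sum_smul]
  congr 1
  exact Finset.sum_congr rfl fun j _ => mul_comm _ _

/-- The determinant form on the plane. -/
def dt (u u' : Fin 2 → F) : F := u 0 * u' 1 - u 1 * u' 0

/-- A matrix of determinant one with first column `u`. -/
theorem exists_sl {u : Fin 2 → F} (hu : u ≠ 0) : ∃ a : Matrix (Fin 2) (Fin 2) F, a.det = 1 ∧ a *ᵥ ![1, 0] = u := by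
  by_cases h0 : u 0 = 0
  · have h1 : u 1 ≠ 0 := by
      intro h1
      apply hu
      funext i
      fin_cases i
      · exact h0
      · exact h1
    refine ⟨!![u 0, -(u 1)⁻¹; u 1, 0], ?_, ?_⟩
    · rw [det_fin_two_of, h0]
      field_simp
      ring
    · funext i
      fin_cases i <;> simp [Matrix.mulVec, dotProduct, Fin.sum_univ_two]
  · refine ⟨!![u 0, 0; u 1, (u 0)⁻¹], ?_, ?_⟩
    · rw [det_fin_two_of]
      field_simp
      ring
    · funext i
      fin_cases i <;> simp [Matrix.mulVec, dotProduct, Fin.sum_univ_two]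

theorem exists_dt {u : Fin 2 → F} (hu : u ≠ 0) : ∃ u' : Fin 2 → F, dt u u' ≠ 0 := by
  by_cases h0 : u 0 = 0
  · have h1 : u 1 ≠ 0 := by
      intro h1
      apply hu
      funext i
      fin_cases i
      · exact h0
      · exact h1
    exact ⟨![1, 0], by simp [dt, h1]⟩
  · exact ⟨![0, 1], by simp [dt, h0]⟩

theorem eq_smul_of_dt {u u' : Fin 2 → F} (hu : u ≠ 0) (h : dt u' u = 0) : ∃ c : F, u' = c • u := by
  unfold dt at h
  by_cases h0 : u 0 = 0
  · have h1 : u 1 ≠ 0 := by
      intro h1
      apply hu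
      funext i
      fin_cases i
      · exact h0
      · exact h1
    refine ⟨u' 1 / u 1, ?_⟩
    rw [h0, mul_zero, sub_zero] at h
    funext i
    fin_cases i
    · simp [h0, (mul_eq_zero.mp h).resolve_right h1]
    · simp [h1]
  · refine ⟨u' 0 / u 0, ?_⟩
    funext i
    fin_cases i
    · simp [h0]
    · simp only [Fin.mk_one, Fin.isValue, Pi.smul_apply, smul_eq_mul]
      field_simp
      linear_combination -h

theorem dt_add_left (u u' v : Fin 2 → F) : dt (u + u') v = dt u v + dt u' v := by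
  simp only [dt, Pi.add_apply]; ring

theorem dt_smul_left (c : F) (u v : Fin 2 → F) : dt (c • u) v = c * dt u v := by
  simp only [dt, Pi.smul_apply, smul_eq_mul]; ring

theorem dt_add_right (u v v' : Fin 2 → F) : dt u (v + v') = dt u v + dt u v' := by
  simp only [dt, Pi.add_apply]; ring

theorem dt_smul_right (c : F) (u v : Fin 2 → F) : dt u (c • v) = c * dt u v := by
  simp only [dt, Pi.smul_apply, smul_eq_mul]; ring

theorem dt_self (u : Fin 2 → F) : dt u u = 0 := by
  simp only [dt]; ring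

theorem dt_swap (u v : Fin 2 → F) : dt u v = -dt v u := by
  simp only [dt]; ring

namespace Setup

theorem tt_form (h : Setup e P B M) (u u' : Fin 2 → F) (w w' : Fin n → F) :
    sympForm m F (tt e P u w) (tt e P u' w') = dt u u' * B w w' := by
  unfold tt
  rw [h.form]
  simp only [map_smul, LinearMap.smul_apply, smul_eq_mul, dt]
  ring

/-- The operators in `Smod` are self-adjoint. -/
theorem adj (h : Setup e P B M) {T : (Fin n → F) →ₗ[F] (Fin n → F)} (hT : T ∈ h.Smod) (x y : Fin n → F) :
    B (T x) y = B x (T y) := by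
  obtain ⟨g, hg, e1⟩ := hT
  have hv : ∀ x : Fin n → F, (g : Matrix _ _ F) *ᵥ vec e P ![0, x] = vec e P ![T x, x] := by
    intro x
    rw [e1, add_mulVec, one_mulVec, up_mulVec, ← vec_add]
    congr 1
    funext i
    fin_cases i
    · simp [LinearMap.toMatrix'_mulVec]
    · simp
  have h1 := sp_form (h.le hg) (vec e P ![0, x]) (vec e P ![0, y])
  rw [hv, hv, h.form, h.form] at h1
  simp only [Matrix.cons_val_zero, Matrix.cons_val_one, map_zero, LinearMap.zero_apply, sub_zero, Matrix.cons_val_fin_one] at h1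
  exact sub_eq_zero.mp h1

theorem good (h : Setup e P B M) : Good B h.Smod where
  two := h.two
  symm := h.symm
  adj := fun T hT x y => h.adj hT x y
  big := h.big
  conj := by
    intro u hu T hT
    obtain ⟨g, hg, e1⟩ := hT
    have hrr : LinearMap.toMatrix' (refl B u) * LinearMap.toMatrix' (refl B u) = 1 := by
      rw [← LinearMap.toMatrix'_comp, ← LinearMap.toMatrix'_id]
      have : refl B u ∘ₗ refl B u = LinearMap.id := LinearMap.ext fun x => refl_refl hu x
      rw [this]
    let r : GL (Fin n) F := ⟨LinearMap.toMatrix' (refl B u), LinearMap.toMatrix' (refl B u), hrr, hrr⟩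
    have hr : tU e P 1 r ∈ M := h.tens 1 (LinearMap.toMatrix' (refl B u)) det_one (by
      intro w w'
      rw [LinearMap.toMatrix'_mulVec, LinearMap.toMatrix'_mulVec, refl_isom h.symm hu]) _ rfl
    refine ⟨tU e P 1 r * g * (tU e P 1 r)⁻¹, M.mul_mem (M.mul_mem hr hg) (M.inv_mem hr), ?_⟩
    rw [Units.val_mul, Units.val_mul, e1, mul_add, mul_one, add_mul, Units.mul_inv, up_eq_tens, tU_conj, inv_one,
      Units.val_one, one_mul, mul_one, up_eq_tens, LinearMap.toMatrix'_comp, LinearMap.toMatrix'_comp, ← mul_assoc]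
    rfl

theorem UU_tt (h : Setup e P B M) {t : Fin n → F} (ht : vee B t t ∈ h.Smod) (u : Fin 2 → F) : UU M (tt e P u t) := by
  by_cases hu : u = 0
  · intro c
    have : tt e P u t = 0 := by
      rw [hu, ← zero_smul F (0 : Fin 2 → F), tt_smul_left, zero_smul]
    rw [this, tGL_zero_left]
    exact M.one_mem
  have h0 : UU M (tt e P ![1, 0] t) := by
    intro c
    obtain ⟨g, hg, e1⟩ := h.Smod.smul_mem (-(c / 2)) ht
    have : g = tGL (tt e P ![1, 0] t) c := by
      apply gl_ext
      intro v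
      obtain ⟨y, rfl⟩ := vec_surj (e := e) (P := P) v
      rw [e1, tGL_mulVec, add_mulVec, one_mulVec, up_mulVec]
      congr 1
      have e2 : sympForm m F (vec e P y) (tt e P ![1, 0] t) = - B (y 1) t := by
        unfold tt
        rw [h.form]
        simp
      rw [e2]
      unfold tt
      rw [← vec_smul]
      congr 1
      have h2 := h.two
      funext i
      fin_cases i
      · simp only [Fin.zero_eta, Fin.isValue, cons_val_zero, LinearMap.toMatrix'_mulVec, LinearMap.smul_apply,
          vee_apply, Pi.smul_apply, one_smul]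
        rw [h.symm t (y 1), ← two_smul F, smul_smul, smul_smul]
        congr 1
        field_simp
      · simp
    rw [← this]
    exact hg
  obtain ⟨a, ha, hau⟩ := exists_sl hu
  have hdet : IsUnit a.det := by rw [ha]; exact isUnit_one
  let A : GL (Fin 2) F := Matrix.nonsingInvUnit a hdet
  have hA : tU e P A 1 ∈ M := h.tens a 1 ha h.one_isom _ rfl
  have h1 := h0.map hA (h.le hA)
  have h2 : ((tU e P A 1 : GL (Fin m ⊕ Fin m) F) : Matrix _ _ F) *ᵥ tt e P ![1, 0] t = tt e P u t := by
    show Cfsg.Agent.H912.tens e P a 1 *ᵥ _ = _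
    rw [tens_tt, hau, one_mulVec]
  rw [h2] at h1
  exact h1

/-- **All transvections.** -/
theorem UU_all (h : Setup e P B M) {e₀ e' z : Fin n → F} (h00 : B e₀ e₀ = 0) (h11 : B e' e' = 0) (h01 : B e₀ e' = 1)
    (h0z : B e₀ z = 0) (h1z : B e' z = 0) (hzz : B z z ≠ 0)
    (hspan : ∀ w : Fin n → F, ∃ α β γ : F, w = α • e₀ + β • e' + γ • z)
    (hv : ∀ t, B t t = 0 → (t = e₀ ∨ B e₀ t ≠ 0) → vee B t t ∈ h.Smod) (v : Fin m ⊕ Fin m → F) : UU M v := by
  have h10 : B e' e₀ = 1 := by rw [h.symm, h01]
  have hz0 : B z e₀ = 0 := by rw [h.symm, h0z]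
  have hz1 : B z e' = 0 := by rw [h.symm, h1z]
  have u0 : ∀ u, UU M (tt e P u e₀) := fun u => h.UU_tt (hv e₀ h00 (Or.inl rfl)) u
  have u1 : ∀ u, UU M (tt e P u e') := fun u => h.UU_tt (hv e' h11 (Or.inr (by rw [h01]; exact one_ne_zero))) u
  -- the special vectors
  set W : F → (Fin n → F) := fun s => e' + s • z + (-(s * s * B z z / 2)) • e₀ with hW
  have h2 := h.two
  have hWW : ∀ s, B (W s) (W s) = 0 := by
    intro s
    simp only [hW, map_add, map_smul, LinearMap.add_apply, LinearMap.smul_apply, smul_eq_mul, h00, h01, h11, h10, h0z, h1z,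
      hz0, hz1]
    field_simp
    ring
  have h0W : ∀ s, B e₀ (W s) = 1 := by
    intro s
    simp only [hW, map_add, map_smul, smul_eq_mul, h00, h01, h0z]
    ring
  have h1W : ∀ s, B e' (W s) = -(s * s * B z z / 2) := by
    intro s
    simp only [hW, map_add, map_smul, smul_eq_mul, h11, h10, h1z]
    ring
  have hzW : ∀ s, B z (W s) = s * B z z := by
    intro s
    simp only [hW, map_add, map_smul, smul_eq_mul, hz1, hz0]
    ring
  have uW : ∀ s u, UU M (tt e P u (W s)) := fun s u => h.UU_tt (hv _ (hWW s) (Or.inr (by rw [h0W]; exact one_ne_zero))) u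
  -- step ii
  have st2 : ∀ u₁ u₂, UU M (tt e P u₁ e₀ + tt e P u₂ e') := by
    have st2a : ∀ u₁ u₂, dt u₁ u₂ ≠ 0 → UU M (tt e P u₁ e₀ + tt e P u₂ e') := by
      intro u₁ u₂ hd
      have := (u0 u₁).add (u1 u₂) (by rw [h.tt_form, h01, mul_one]; exact hd) 1 1
      rwa [one_smul, one_smul] at this
    intro u₁ u₂
    by_cases hd : dt u₁ u₂ = 0
    · by_cases hu2 : u₂ = 0
      · have : tt e P u₂ e' = 0 := by
          rw [hu2, ← zero_smul F (0 : Fin 2 → F), tt_smul_left, zero_smul]
        rw [this, add_zero]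
        exact u0 u₁
      · obtain ⟨u, hu⟩ := exists_dt hu2
        have hy := st2a (u₁ + u) u₂ (by rw [dt_add_left, hd, zero_add, dt_swap]; exact neg_ne_zero.mpr hu)
        have := hy.add (u0 u) (by
          rw [sympForm_add_left, h.tt_form, h.tt_form, h00, h10, mul_zero, zero_add, mul_one]
          exact hu) 1 (-1)
        rw [one_smul, neg_one_smul, tt_add_left] at this
        convert this using 1
        abel
    · exact st2a u₁ u₂ hd
  -- step iii
  have st3 : ∀ u₁ u₂ u₃, (dt u₁ u₃ ≠ 0 ∨ dt u₂ u₃ ≠ 0) → UU M (tt e P u₁ e₀ + tt e P u₂ e' + tt e P u₃ z) := by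
    intro u₁ u₂ u₃ hd
    obtain ⟨s, hs0, hs⟩ : ∃ s : F, s ≠ 0 ∧ dt u₁ u₃ + dt u₂ u₃ * (-(s * s * B z z / 2)) ≠ 0 := by
      by_contra hno
      push Not at hno
      obtain ⟨t, ht0, ht⟩ := h.big
      have e1 := hno 1 one_ne_zero
      have e2 := hno t ht0
      have e3 : (t * t - 1) * (dt u₂ u₃ * B z z) = 0 := by
        field_simp at e1 e2
        linear_combination e1 - e2
      have e4 : dt u₂ u₃ = 0 :=
        (mul_eq_zero.mp ((mul_eq_zero.mp e3).resolve_left (sub_ne_zero.mpr ht))).resolve_right hzz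
      rw [e4, zero_mul, add_zero] at e1
      rcases hd with hd | hd
      · exact hd e1
      · exact hd e4
    have hx := st2 (u₁ + (s * B z z / 2) • u₃) (u₂ + (-s⁻¹) • u₃)
    have := hx.add (uW s u₃) (by
      rw [sympForm_add_left, h.tt_form, h.tt_form, dt_add_left, dt_add_left, dt_smul_left, dt_smul_left, dt_self,
        mul_zero, mul_zero, add_zero, add_zero, h0W, h1W, mul_one]
      exact hs) 1 s⁻¹
    convert this using 1
    simp only [hW, tt_add_left, tt_smul_left, tt_add_right, tt_smul_right]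
    match_scalars <;> field_simp <;> ring
  -- step iv
  obtain ⟨y, rfl⟩ := vec_surj (e := e) (P := P) v
  obtain ⟨a0, b0, c0, hy0⟩ := hspan (y 0)
  obtain ⟨a1, b1, c1, hy1⟩ := hspan (y 1)
  have hyv : vec e P y = tt e P ![a0, a1] e₀ + tt e P ![b0, b1] e' + tt e P ![c0, c1] z := by
    unfold tt
    rw [← vec_add, ← vec_add]
    congr 1
    funext i
    fin_cases i
    · exact hy0
    · exact hy1
  rw [hyv]
  generalize (![a0, a1] : Fin 2 → F) = u₁
  generalize (![b0, b1] : Fin 2 → F) = u₂
  generalize (![c0, c1] : Fin 2 → F) = u₃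
  by_cases hd : dt u₁ u₃ ≠ 0 ∨ dt u₂ u₃ ≠ 0
  · exact st3 u₁ u₂ u₃ hd
  push Not at hd
  by_cases hu3 : u₃ = 0
  · have : tt e P u₃ z = 0 := by
      rw [hu3, ← zero_smul F (0 : Fin 2 → F), tt_smul_left, zero_smul]
    rw [this, add_zero]
    exact st2 u₁ u₂
  obtain ⟨α, rfl⟩ := eq_smul_of_dt hu3 hd.1
  obtain ⟨β, rfl⟩ := eq_smul_of_dt hu3 hd.2
  obtain ⟨u, hu⟩ := exists_dt hu3
  have hu' : dt u u₃ ≠ 0 := by rw [dt_swap]; exact neg_ne_zero.mpr hu
  by_cases hβ : β = 0
  · by_cases hα : α = 0
    · -- `w₁`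
      have hy := st3 ((-(B z z / 2)) • u) u (u₃ + u) (Or.inr (by rw [dt_add_right, dt_self, add_zero]; exact hu'))
      have := hy.add (uW 1 u) (by
        rw [sympForm_add_left, sympForm_add_left, h.tt_form, h.tt_form, h.tt_form, dt_smul_left, dt_self, dt_add_left,
          dt_self, mul_zero, zero_mul, zero_mul, hzW, zero_add, zero_add, add_zero, one_mul]
        exact mul_ne_zero hu hzz) 1 (-1)
      convert this using 1
      simp only [hW, tt_add_left, tt_smul_left, tt_add_right, tt_smul_right, hα, hβ]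
      match_scalars <;> field_simp <;> ring
    · have hy := st3 (α • u₃) (β • u₃ + u) u₃ (Or.inr (by
        rw [dt_add_left, dt_smul_left, dt_self, mul_zero, zero_add]; exact hu'))
      have := hy.add (u1 u) (by
        rw [sympForm_add_left, sympForm_add_left, h.tt_form, h.tt_form, h.tt_form, h01, h11, hz1, mul_zero, mul_zero,
          add_zero, add_zero, mul_one, dt_smul_left]
        exact mul_ne_zero hα hu) 1 (-1)
      convert this using 1
      simp only [tt_add_left, tt_smul_left, one_smul, neg_one_smul]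
      abel
  · have hy := st3 (α • u₃ + u) (β • u₃) u₃ (Or.inl (by
      rw [dt_add_left, dt_smul_left, dt_self, mul_zero, zero_add]; exact hu'))
    have := hy.add (u0 u) (by
      rw [sympForm_add_left, sympForm_add_left, h.tt_form, h.tt_form, h.tt_form, h00, h10, hz0, mul_zero, mul_zero,
        zero_add, add_zero, mul_one, dt_smul_left]
      exact mul_ne_zero hβ hu) 1 (-1)
    convert this using 1
    simp only [tt_add_left, tt_smul_left, one_smul, neg_one_smul]
    abel

end Setup

end Cfsg.Agent.H914.TensModel
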