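import Cfsg.Agent.H914.UniThree

/-!
# Overgroups of `GU₃(q).2` in `Sp₆(q)`, II: transvections (helper914)
-/

set_option autoImplicit false
set_option linter.unusedSectionVars false
set_option linter.unusedSimpArgs false

namespace Cfsg.Agent.H914.UniThree

open Module Cfsg.Agent.H879 Cfsg.Agent.H879.UnitSymp

variable {F V : Type*} [Field F] [AddCommGroup V] [Module F V]
variable {f : V →ₗ[F] V →ₗ[F] F} {κ : V →ₗ[F] V} {d : F} {M : Subgroup (V ≃ₗ[F] V)}

/-- The element of the unipotent radical attached to a symmetric tensor. -/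
def Sm (f : V →ₗ[F] V →ₗ[F] F) (κ : V →ₗ[F] V) (v : V) (α β γ : F) (x : V) : V :=
  x + (α * f x v + β * f x (κ v)) • v + (β * f x v + γ * f x (κ v)) • κ v

namespace H6

variable (h : H6 f κ d M)
include h

theorem Sm_comp {v : V} (hq : f (κ v) v = 0) (α β γ α' β' γ' : F) (x : V) :
    Sm f κ v α β γ (Sm f κ v α' β' γ' x) = Sm f κ v (α + α') (β + β') (γ + γ') x := by
  have e1 : f v (κ v) = 0 := by rw [h.skew, hq, neg_zero]
  unfold Sm
  simp only [map_add, map_smul, LinearMap.add_apply, LinearMap.smul_apply, smul_eq_mul, h.alt, e1, hq, mul_zero,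
    add_zero]
  module

theorem Sm_change {v : V} (a b α β γ : F) (x : V) :
    Sm f κ (a • v + b • κ v) α β γ x = Sm f κ v (α * a * a + 2 * β * a * b * d + γ * b * b * d * d)
      (α * a * b + β * (a * a + b * b * d) + γ * a * b * d) (α * b * b + 2 * β * a * b + γ * a * a) x := by
  unfold Sm
  simp only [map_add, map_smul, LinearMap.add_apply, LinearMap.smul_apply, smul_eq_mul, h.sq]
  module

theorem Sm_conj {v : V} {α β γ : F} (hm : Has M (Sm f κ v α β γ)) {g : V ≃ₗ[F] V} (hg : g ∈ M)
    (hκ : g (κ v) = κ (g v)) : Has M (Sm f κ (g v) α β γ) := by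
  refine (hm.conj hg).congr fun x => ?_
  unfold Sm
  simp only [map_add, map_smul, apply_inv_apply, h.pres_inv hg, hκ]

theorem Sm_inv {v : V} (hq : f (κ v) v = 0) {α β γ : F} (hm : Has M (Sm f κ v α β γ)) :
    Has M (Sm f κ v (-α) (-β) (-γ)) := by
  refine hm.inv fun x => ?_
  rw [h.Sm_comp hq]
  unfold Sm
  simp

theorem Sm_ut {v : V} (hq : f (κ v) v = 0) (hv : v ≠ 0) (c : F) : Has M (Sm f κ v (-(c * d)) 0 c) := by
  have e1 : f v (κ v) = 0 := by rw [h.skew, hq, neg_zero]
  have key : ∀ x, Sm f κ v (-(c * d)) 0 c x = x - (c * d * f x v) • v + (c * f x (κ v)) • κ v := by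
    intro x
    unfold Sm
    module
  let T : V →ₗ[F] V :=
    { toFun := Sm f κ v (-(c * d)) 0 c
      map_add' := fun x y => by
        simp only [key, map_add, LinearMap.add_apply]
        module
      map_smul' := fun a x => by
        simp only [key, map_smul, LinearMap.smul_apply, smul_eq_mul, RingHom.id_apply]
        module }
  let T' : V →ₗ[F] V :=
    { toFun := Sm f κ v (-(-c * d)) 0 (-c)
      map_add' := fun x y => by
        simp only [Sm, map_add, LinearMap.add_apply]
        module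
      map_smul' := fun a x => by
        simp only [Sm, map_smul, LinearMap.smul_apply, smul_eq_mul, RingHom.id_apply]
        module }
  let g : V ≃ₗ[F] V := LinearEquiv.ofLinear T T'
    (by
      ext x
      show Sm f κ v (-(c * d)) 0 c (Sm f κ v (-(-c * d)) 0 (-c) x) = x
      rw [h.Sm_comp hq]
      unfold Sm
      simp)
    (by
      ext x
      show Sm f κ v (-(-c * d)) 0 (-c) (Sm f κ v (-(c * d)) 0 c x) = x
      rw [h.Sm_comp hq]
      unfold Sm
      simp)
  have hgx : ∀ x, g x = Sm f κ v (-(c * d)) 0 c x := fun x => rfl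
  refine ⟨g, h.mem g ?_ 1 (one_mul 1) ?_, hgx⟩
  · intro x y
    rw [hgx, hgx, key, key]
    simp only [map_add, map_sub, map_smul, LinearMap.add_apply, LinearMap.sub_apply, LinearMap.smul_apply, smul_eq_mul,
      h.alt, e1, hq, h.skew v y, h.skew (κ v) y]
    ring
  · intro x
    rw [hgx, hgx, key, key, one_smul]
    have k1 : f (κ x) v = - f x (κ v) := h.adj x v
    simp only [map_add, map_sub, map_smul, h.sq, h.kk, k1]
    module

/-- Multiplications by elements of `K` on an isotropic vector are induced by elements of `M`. -/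
theorem exists_torus {v : V} (hv : v ≠ 0) (hq : f (κ v) v = 0) {a b : F} (hab : a ≠ 0 ∨ b ≠ 0) :
    ∃ g ∈ M, (∀ x, g (κ x) = κ (g x)) ∧ g v = a • v + b • κ v := by
  obtain ⟨w, v', hF⟩ := h.exists_frame hv hq
  have hD : a * a - d * (b * b) ≠ 0 := h.quad_ne hab.symm
  have e1 : f v (κ v) = 0 := by rw [h.skew, hF.vv, neg_zero]
  have g1 : f (κ v') v = 1 := by rw [h.symm, hF.kvp]
  have k1 : f v (κ v') = -1 := by rw [h.skew, g1]
  have g2 : f (κ w) v = 0 := by rw [h.symm, hF.kvw]
  have k3 : f v (κ w) = 0 := by rw [h.skew, g2, neg_zero]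
  have g3 : f (κ v') w = 0 := by rw [h.symm, hF.kwp]
  have k2 : f w (κ v') = 0 := by rw [h.skew, g3, neg_zero]
  set D := a * a - d * (b * b) with hDdef
  have hF₁ : Fr f κ 1 (a • v + b • κ v) w ((a / D) • v' + (b / D) • κ v') := by
    refine ⟨?_, hF.ww, ?_, ?_, ?_, ?_, ?_, ?_, ?_⟩
    · rw [h.q_comb, hq, mul_zero]
    · rw [h.q_comb, hF.pp, mul_zero]
    · simp only [map_add, map_smul, LinearMap.add_apply, LinearMap.smul_apply, smul_eq_mul, hF.vp, hF.kvp, k1, h.kk,
        mul_zero, neg_zero, add_zero, zero_add]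
      field_simp
      ring
    · simp only [map_add, map_smul, LinearMap.add_apply, LinearMap.smul_apply, smul_eq_mul, hF.vp, hF.kvp, k1, h.kk,
        h.sq, mul_zero, neg_zero, add_zero, zero_add]
      field_simp
      rw [hDdef]
      ring
    · simp only [map_add, map_smul, LinearMap.add_apply, LinearMap.smul_apply, smul_eq_mul, hF.vw, hF.kvw]
      ring
    · simp only [map_add, map_smul, LinearMap.add_apply, LinearMap.smul_apply, smul_eq_mul, hF.vw, hF.kvw, h.sq]
      ring
    · simp only [map_add, map_smul, LinearMap.add_apply, LinearMap.smul_apply, smul_eq_mul, hF.wp, k2]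
      ring
    · simp only [map_add, map_smul, LinearMap.add_apply, LinearMap.smul_apply, smul_eq_mul, hF.kwp, hF.wp, h.kk]
      ring
  obtain ⟨g, hg, hκ, hgv, -, -⟩ := h.exists_ext (one_mul 1) hF hF₁
  exact ⟨g, hg, fun x => by rw [hκ, one_smul], hgv⟩

/-- The action of the torus on the radical. -/
theorem Sm_torus {v : V} (hv : v ≠ 0) (hq : f (κ v) v = 0) {α β γ : F} (hm : Has M (Sm f κ v α β γ)) (a b : F) :
    Has M (Sm f κ v (α * a * a + 2 * β * a * b * d + γ * b * b * d * d)
      (α * a * b + β * (a * a + b * b * d) + γ * a * b * d) (α * b * b + 2 * β * a * b + γ * a * a)) := by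
  by_cases hab : a ≠ 0 ∨ b ≠ 0
  · obtain ⟨g, hg, hκ, hgv⟩ := h.exists_torus hv hq hab
    have h1 := h.Sm_conj hm hg (hκ v)
    rw [hgv] at h1
    exact h1.congr fun x => h.Sm_change a b α β γ x
  · push Not at hab
    refine has_id.congr fun x => ?_
    rw [hab.1, hab.2]
    unfold Sm
    module

/-- **Lemma Q**. -/
theorem Sm_trans {v : V} (hv : v ≠ 0) (hq : f (κ v) v = 0) {α β γ : F} (hm : Has M (Sm f κ v α β γ))
    (hne : α + d * γ ≠ 0 ∨ β ≠ 0) (e : F) : Has M (tr f v e) := by
  have h2 := h.two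
  have hΔ : (α + d * γ) * (α + d * γ) - d * ((2 * β) * (2 * β)) ≠ 0 := by
    refine h.quad_ne ?_
    rcases hne with h1 | h1
    · exact Or.inr h1
    · exact Or.inl (mul_ne_zero h2 h1)
  set Δ := (α + d * γ) * (α + d * γ) - d * ((2 * β) * (2 * β)) with hΔd
  -- `z = e / σ = p + r κ`
  set p := e * (α + d * γ) / Δ with hp
  set r := -(2 * e * β) / Δ with hr
  have s1 := h.Sm_torus hv hq hm ((p + 1) / 2) (r / 2)
  have s2 := h.Sm_inv hq (h.Sm_torus hv hq hm ((p - 1) / 2) (r / 2))
  have s3 := s1.comp s2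
  have e1 : p * (α + d * γ) + r * (2 * β) * d = e := by
    rw [hp, hr]
    field_simp
    rw [hΔd]
    ring
  have e2 : p * (2 * β) + r * (α + d * γ) = 0 := by
    rw [hp, hr]
    field_simp
    ring
  -- the sum of the coefficients
  set A := α * ((p + 1) / 2) * ((p + 1) / 2) + 2 * β * ((p + 1) / 2) * (r / 2) * d + γ * (r / 2) * (r / 2) * d * d +
    -(α * ((p - 1) / 2) * ((p - 1) / 2) + 2 * β * ((p - 1) / 2) * (r / 2) * d + γ * (r / 2) * (r / 2) * d * d) with hA
  set B := α * ((p + 1) / 2) * (r / 2) + β * ((p + 1) / 2 * ((p + 1) / 2) + r / 2 * (r / 2) * d) +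
      γ * ((p + 1) / 2) * (r / 2) * d +
    -(α * ((p - 1) / 2) * (r / 2) + β * ((p - 1) / 2 * ((p - 1) / 2) + r / 2 * (r / 2) * d) +
      γ * ((p - 1) / 2) * (r / 2) * d) with hB
  set C := α * (r / 2) * (r / 2) + 2 * β * ((p + 1) / 2) * (r / 2) + γ * ((p + 1) / 2) * ((p + 1) / 2) +
    -(α * (r / 2) * (r / 2) + 2 * β * ((p - 1) / 2) * (r / 2) + γ * ((p - 1) / 2) * ((p - 1) / 2)) with hC
  have s4 : Has M (Sm f κ v A B C) := s3.congr fun x => h.Sm_comp hq _ _ _ _ _ _ x
  have hB0 : B = 0 := by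
    have : B = (p * (2 * β) + r * (α + d * γ)) / 2 := by rw [hB]; field_simp; ring
    rw [this, e2, zero_div]
  have hAC : A + d * C = e := by
    have : A + d * C = p * (α + d * γ) + r * (2 * β) * d := by rw [hA, hC]; field_simp; ring
    rw [this, e1]
  have s5 := s4.comp (h.Sm_ut hq hv (-C))
  refine s5.congr fun x => ?_
  rw [h.Sm_comp hq, hB0]
  have e3 : A + -(-C * d) = e := by rw [← hAC]; ring
  rw [e3]
  unfold Sm tr
  module

/-- sums of non-orthogonal vectors. -/
theorem tr_sum {y z : V} (hy : ∀ e : F, Has M (tr f y e)) (hz : ∀ e : F, Has M (tr f z e)) (hyz : f y z ≠ 0) (e : F) :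
    Has M (tr f (y + z) e) := by
  obtain ⟨g, hg, hge⟩ := hz (f y z)⁻¹
  have hgy : g y = y + z := by
    rw [hge]
    unfold tr
    rw [inv_mul_cancel₀ hyz, one_smul]
  refine ((hy e).conj hg).congr fun x => ?_
  unfold tr
  simp only [map_add, map_smul, apply_inv_apply, h.pres_inv hg, hgy]

/-- **All transvections from one**. -/
theorem all_of_first {v : V} (hv : v ≠ 0) (hq : f (κ v) v = 0) (ht : ∀ e : F, Has M (tr f v e)) (y : V) (e : F) :
    Has M (tr f y e) := by
  have h2 := h.two
  obtain ⟨w, v', hF⟩ := h.exists_frame hv hq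
  -- isotropic vectors
  have hiso : ∀ z : V, f (κ z) z = 0 → ∀ e : F, Has M (tr f z e) := by
    intro z hz e
    by_cases hz0 : z = 0
    · subst hz0
      refine has_id.congr fun x => ?_
      unfold tr
      simp
    obtain ⟨w₁, v₁', hF₁⟩ := h.exists_frame hz0 hz
    obtain ⟨g, hg, -, hgv, -, -⟩ := h.exists_ext (one_mul 1) hF hF₁
    refine ((ht e).conj hg).congr fun x => ?_
    unfold tr
    simp only [map_add, map_smul, apply_inv_apply, h.pres_inv hg, hgv]
  by_cases hy : f (κ y) y = 0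
  · exact hiso y hy e
  -- an isotropic vector `z` not `K`-orthogonal to `y`
  obtain ⟨z, hz, hzy⟩ : ∃ z, f (κ z) z = 0 ∧ (f z y ≠ 0 ∨ f (κ z) y ≠ 0) := by
    by_contra hno
    push Not at hno
    have hy0 : y ≠ 0 := by
      rintro rfl
      simp at hy
    obtain ⟨b, hb⟩ := h.exists_basis (one_mul 1) hF
    have a1 := hno v hF.vv
    have a2 := hno v' hF.pp
    have g2 : f (κ w) v = 0 := by rw [h.symm, hF.kvw]
    have m1 : f (κ v') v = 1 := by rw [h.symm, hF.kvp]
    have a3 := hno ((-(1 / 2) : F) • v + w + v') (by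
      simp only [map_add, map_smul, LinearMap.add_apply, LinearMap.smul_apply, smul_eq_mul, hF.vv, hF.ww, hF.pp, hF.kvp,
        hF.kvw, hF.kwp, g2, m1, h.symm v' w]
      field_simp
      ring)
    simp only [map_add, map_smul, LinearMap.add_apply, LinearMap.smul_apply, smul_eq_mul, a1.1, a1.2, a2.1, a2.2,
      mul_zero, add_zero, zero_add] at a3
    obtain ⟨x, hx⟩ := h.ndeg y hy0
    apply hx
    have : f y = 0 := by
      apply b.ext
      intro i
      rw [hb]
      fin_cases i
      · simpa using (by rw [h.skew, a1.1, neg_zero] : f y v = 0)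
      · simpa using (by rw [h.skew, a1.2, neg_zero] : f y (κ v) = 0)
      · simpa using (by rw [h.skew, a3.1, neg_zero] : f y w = 0)
      · simpa using (by rw [h.skew, a3.2, neg_zero] : f y (κ w) = 0)
      · simpa using (by rw [h.skew, a2.1, neg_zero] : f y v' = 0)
      · simpa using (by rw [h.skew, a2.2, neg_zero] : f y (κ v') = 0)
    rw [this, LinearMap.zero_apply]
  -- scale `z`: `f (κ z) y = q y / 2`, `f z y = 1`
  set s := f (κ y) y with hs
  set P := f z y with hP
  set P' := f (κ z) y with hP'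
  have hD : P' * P' - d * (P * P) ≠ 0 := h.quad_ne hzy
  set D := P' * P' - d * (P * P) with hDd
  -- `λ (P' + κ P) = s/2 + κ`, `λ = (s/2 + κ)(P' - κ P)/D`
  set a := (s / 2 * P' - d * P) / D with ha
  set b := (P' - s / 2 * P) / D with hb
  have hz1 : f (κ (a • z + b • κ z)) (a • z + b • κ z) = 0 := by rw [h.q_comb, hz, mul_zero]
  have hz2 : f (a • z + b • κ z) y = 1 := by
    rw [map_add, map_smul, map_smul, LinearMap.add_apply, LinearMap.smul_apply, LinearMap.smul_apply, smul_eq_mul,
      smul_eq_mul, ← hP, ← hP', ha, hb]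
    field_simp
    rw [hDd]
    ring
  have hz3 : f (κ (a • z + b • κ z)) y = s / 2 := by
    simp only [map_add, map_smul, LinearMap.add_apply, LinearMap.smul_apply, smul_eq_mul, h.sq]
    rw [← hP, ← hP', ha, hb]
    field_simp
    rw [hDd]
    ring
  set y₁ := a • z + b • κ z with hy₁
  have hy2 : f (κ (y - y₁)) (y - y₁) = 0 := by
    simp only [map_sub, LinearMap.sub_apply, hz1, hz3, ← hs, h.symm y y₁]
    field_simp
    ring
  have h3 := h.tr_sum (hiso y₁ hz1) (hiso (y - y₁) hy2) (by
    rw [map_sub, hz2, h.alt, sub_zero]; exact one_ne_zero) e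
  rwa [add_sub_cancel] at h3

end H6

end Cfsg.Agent.H914.UniThree
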