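import Cfsg.Agent.H914.UniThreeB

/-!
# Overgroups of `GU₃(q).2` in `Sp₆(q)`, III: the stabiliser of an isotropic `K`-line (helper914)
-/

set_option autoImplicit false
set_option linter.unusedSectionVars false
set_option linter.unusedSimpArgs false

namespace Cfsg.Agent.H914.UniThree

open Module Cfsg.Agent.H879 Cfsg.Agent.H879.UnitSymp

variable {F V : Type*} [Field F] [AddCommGroup V] [Module F V]
variable {f : V →ₗ[F] V →ₗ[F] F} {κ : V →ₗ[F] V} {d : F} {M : Subgroup (V ≃ₗ[F] V)}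

/-- The values of the form on a frame. -/
structure Vals (f : V →ₗ[F] V →ₗ[F] F) (κ : V →ₗ[F] V) (v w v' : V) : Prop where
  a1 : f v (κ v) = 0
  a2 : f w (κ w) = -1
  a3 : f v' (κ v') = 0
  a4 : f v' v = 0
  a5 : f v' (κ v) = -1
  a6 : f w v = 0
  a7 : f w (κ v) = 0
  a8 : f v' w = 0
  a9 : f v' (κ w) = 0
  b1 : f (κ v') v = 1
  b2 : f (κ w) v = 0
  b3 : f (κ v') w = 0
  c1 : f v (κ v') = -1
  c2 : f w (κ v') = 0
  c3 : f v (κ w) = 0

namespace H6

variable (h : H6 f κ d M)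
include h

theorem vals {v w v' : V} (hF : Fr f κ 1 v w v') : Vals f κ v w v' := by
  have g1 : f (κ v') v = 1 := by rw [h.symm, hF.kvp]
  have g2 : f (κ w) v = 0 := by rw [h.symm, hF.kvw]
  have g3 : f (κ v') w = 0 := by rw [h.symm, hF.kwp]
  exact
    { a1 := by rw [h.skew, hF.vv, neg_zero]
      a2 := by rw [h.skew, hF.ww]
      a3 := by rw [h.skew, hF.pp, neg_zero]
      a4 := by rw [h.skew, hF.vp, neg_zero]
      a5 := by rw [h.skew, hF.kvp]
      a6 := by rw [h.skew, hF.vw, neg_zero]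
      a7 := by rw [h.skew, hF.kvw, neg_zero]
      a8 := by rw [h.skew, hF.wp, neg_zero]
      a9 := by rw [h.skew, hF.kwp, neg_zero]
      b1 := g1
      b2 := g2
      b3 := g3
      c1 := by rw [h.skew, g1]
      c2 := by rw [h.skew, g3, neg_zero]
      c3 := by rw [h.skew, g2, neg_zero] }

/-- The expansion of a vector in a frame. -/
theorem expand {v w v' : V} (hF : Fr f κ 1 v w v') (y : V) :
    y = (-(f y (κ v'))) • v + f y v' • κ v + (-(f y (κ w))) • w + f y w • κ w + (-(f y (κ v))) • v' + f y v • κ v' := by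
  obtain ⟨b, hb⟩ := h.exists_basis (one_mul 1) hF
  have hV := h.vals hF
  have hs := b.sum_repr y
  rw [Fin.sum_univ_six, hb] at hs
  simp only [Matrix.cons_val_zero, Matrix.cons_val_one, Matrix.cons_val, one_smul] at hs
  generalize b.repr y 0 = c0 at hs
  generalize b.repr y 1 = c1 at hs
  generalize b.repr y 2 = c2 at hs
  generalize b.repr y 3 = c3 at hs
  generalize b.repr y 4 = c4 at hs
  generalize b.repr y 5 = c5 at hs
  subst hs
  simp only [map_add, map_smul, LinearMap.add_apply, LinearMap.smul_apply, smul_eq_mul, h.kk, h.alt, hV.a1, hV.a2, hV.a3,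
    hV.a4, hV.a5, hV.a6, hV.a7, hV.a8, hV.a9, hV.b1, hV.b2, hV.b3, hV.c1, hV.c2, hV.c3, hF.vv, hF.ww, hF.pp, hF.vp, hF.kvp,
    hF.vw, hF.kvw, hF.wp, hF.kwp, mul_zero, neg_zero, add_zero, zero_add, mul_one, mul_neg, neg_neg]

/-- Vectors orthogonal to the isotropic line. -/
theorem expand_perp {v w v' : V} (hF : Fr f κ 1 v w v') {y : V} (h1 : f y v = 0) (h2 : f y (κ v) = 0) :
    y = (-(f y (κ v'))) • v + f y v' • κ v + (-(f y (κ w))) • w + f y w • κ w := by
  have := h.expand hF y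
  rw [h1, h2] at this
  simpa using this

/-- Elements of `M` trivial on the perp of an isotropic line. -/
theorem eq_Sm {v w v' : V} (hF : Fr f κ 1 v w v') {c : V ≃ₗ[F] V} (hc : c ∈ M) (hv : c v = v) (hκv : c (κ v) = κ v)
    (hw : c w = w) (hκw : c (κ w) = κ w) : ∃ α β γ : F, ∀ x, c x = Sm f κ v α β γ x := by
  have hV := h.vals hF
  -- `c x - x` is orthogonal to the fixed vectors
  have horth : ∀ x z, c z = z → f (c x - x) z = 0 := by
    intro x z hz
    rw [map_sub, LinearMap.sub_apply]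
    nth_rewrite 1 [← hz]
    rw [h.pres c hc, sub_self]
  have hdiff : ∀ x, c x - x = (-(f (c x - x) (κ v'))) • v + f (c x - x) v' • κ v := by
    intro x
    have := h.expand hF (c x - x)
    rw [horth x v hv, horth x _ hκv, horth x w hw, horth x _ hκw] at this
    simpa using this
  -- the values at `v'` and `κ v'`
  set A1 := -(f (c v' - v') (κ v')) with hA1
  set B1 := f (c v' - v') v' with hB1
  set A2 := -(f (c (κ v') - κ v') (κ v')) with hA2
  set B2 := f (c (κ v') - κ v') v' with hB2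
  have e1 : c v' = v' + A1 • v + B1 • κ v := by rw [add_assoc, ← hdiff]; abel
  have e2 : c (κ v') = κ v' + A2 • v + B2 • κ v := by rw [add_assoc, ← hdiff]; abel
  have hsym : B2 = -A1 := by
    have h1 := h.pres c hc v' (κ v')
    rw [e1, e2] at h1
    simp only [map_add, map_smul, LinearMap.add_apply, LinearMap.smul_apply, smul_eq_mul, h.kk, h.alt, hV.a1, hV.a2, hV.a3,
      hV.a4, hV.a5, hV.a6, hV.a7, hV.a8, hV.a9, hV.b1, hV.b2, hV.b3, hV.c1, hV.c2, hV.c3, hF.vv, hF.ww, hF.pp, hF.vp, hF.kvp,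
      hF.vw, hF.kvw, hF.wp, hF.kwp, mul_zero, neg_zero, add_zero, zero_add, mul_one, mul_neg, neg_neg] at h1
    linear_combination -h1
  refine ⟨A2, B2, -B1, fun x => ?_⟩
  conv_lhs => rw [h.expand hF x]
  simp only [map_add, map_smul, hv, hκv, hw, hκw, e1, e2]
  conv_rhs => unfold Sm
  conv_rhs => rw [show x + (A2 * f x v + B2 * f x (κ v)) • v + (B2 * f x v + -B1 * f x (κ v)) • κ v =
    ((-(f x (κ v'))) • v + f x v' • κ v + (-(f x (κ w))) • w + f x w • κ w + (-(f x (κ v))) • v' + f x v • κ v') +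
      (A2 * f x v + B2 * f x (κ v)) • v + (B2 * f x v + -B1 * f x (κ v)) • κ v from by rw [← h.expand hF x]]
  rw [hsym]
  module

/-- The element `w ↦ w + v`. -/
theorem exists_u {v w v' : V} (hF : Fr f κ 1 v w v') :
    ∃ u ∈ M, (∀ x, u (κ x) = κ (u x)) ∧ u v = v ∧ u w = w + v ∧ u v' = v' - w - (1 / 2 : F) • v := by
  have hV := h.vals hF
  have h2 := h.two
  have hF₁ : Fr f κ 1 v (w + v) (v' - w - (1 / 2 : F) • v) := by
    refine ⟨hF.vv, ?_, ?_, ?_, ?_, ?_, ?_, ?_, ?_⟩ <;>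
    simp only [map_add, map_sub, map_smul, LinearMap.add_apply, LinearMap.sub_apply, LinearMap.smul_apply, smul_eq_mul, h.kk, h.alt, hV.a1, hV.a2, hV.a3,
      hV.a4, hV.a5, hV.a6, hV.a7, hV.a8, hV.a9, hV.b1, hV.b2, hV.b3, hV.c1, hV.c2, hV.c3, hF.vv, hF.ww, hF.pp, hF.vp, hF.kvp,
      hF.vw, hF.kvw, hF.wp, hF.kwp, mul_zero, neg_zero, add_zero, zero_add, mul_one, mul_neg, neg_neg, sub_zero, zero_sub]
    · field_simp
      ring
    · ring
  obtain ⟨u, hu, hκ, u1, u2, u3⟩ := h.exists_ext (one_mul 1) hF hF₁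
  exact ⟨u, hu, fun x => by rw [hκ, one_smul], u1, u2, u3⟩

/-- **Lemma R**. -/
theorem klin {v w v' : V} (hF : Fr f κ 1 v w v') (hnt : ¬ ∀ (y : V) (e : F), Has M (tr f y e)) {g : V ≃ₗ[F] V}
    (hg : g ∈ M) (hv : g v = v) (hκv : g (κ v) = κ v) {x₁ x₂ y₁ y₂ : F} (hw : g w = w + x₁ • v + x₂ • κ v)
    (hκw : g (κ w) = κ w + y₁ • v + y₂ • κ v) : y₁ = d * x₂ ∧ y₂ = x₁ := by
  have hV := h.vals hF
  have h2 := h.two
  have hv0 : v ≠ 0 := by
    rintro rfl
    have := hF.kvp
    simp at this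
  obtain ⟨u, hu, huκ, uv, uw, uv'⟩ := h.exists_u hF
  have uκv : u (κ v) = κ v := by rw [huκ, uv]
  have uκw : u (κ w) = κ w + κ v := by rw [huκ, uw, map_add]
  have uκv' : u (κ v') = κ v' - κ w - (1 / 2 : F) • κ v := by rw [huκ, uv', map_sub, map_sub, map_smul]
  set c := g * u * g⁻¹ * u⁻¹ with hc
  have hcM : c ∈ M := M.mul_mem (M.mul_mem (M.mul_mem hg hu) (M.inv_mem hg)) (M.inv_mem hu)
  have hcug : ∀ z, c (u (g z)) = g (u z) := by
    intro z
    rw [hc, LinearEquiv.mul_apply, LinearEquiv.mul_apply, LinearEquiv.mul_apply, inv_apply_apply, inv_apply_apply]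
  have c1 : c v = v := by
    have := hcug v
    rwa [hv, uv, hv] at this
  have c2 : c (κ v) = κ v := by
    have := hcug (κ v)
    rwa [hκv, uκv, hκv] at this
  have c3 : c w = w := by
    have := hcug w
    rw [hw] at this
    simp only [map_add, map_smul, uv, uw, uκv, hv, hκv, hw, c1, c2] at this
    have e : c w = c w + v + x₁ • v + x₂ • κ v - (v + x₁ • v + x₂ • κ v) := by abel
    rw [e, this]
    abel
  have c4 : c (κ w) = κ w := by
    have := hcug (κ w)
    rw [hκw] at this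
    simp only [map_add, map_smul, uv, uκw, uκv, hv, hκv, hκw, c1, c2] at this
    have e : c (κ w) = c (κ w) + κ v + y₁ • v + y₂ • κ v - (κ v + y₁ • v + y₂ • κ v) := by abel
    rw [e, this]
    abel
  obtain ⟨α, β, γ, hS⟩ := h.eq_Sm hF hcM c1 c2 c3 c4
  have hzero : α + d * γ = 0 ∧ β = 0 := by
    by_contra hcon
    have hne : α + d * γ ≠ 0 ∨ β ≠ 0 := by
      by_contra hcon'
      push Not at hcon'
      exact hcon hcon'
    exact hnt (h.all_of_first hv0 hF.vv (h.Sm_trans hv0 hF.vv ⟨c, hcM, hS⟩ hne))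
  -- the images of `v'` and `κ v'`
  have g1 : f (g v') v = 0 := by
    nth_rewrite 1 [← hv]
    rw [h.pres g hg, hV.a4]
  have g2 : f (g v') (κ v) = -1 := by
    nth_rewrite 1 [← hκv]
    rw [h.pres g hg, hV.a5]
  have g3 : f (g v') w = x₂ := by
    have e1 : w = g w - x₁ • v - x₂ • κ v := by rw [hw]; abel
    rw [e1, map_sub, map_sub, h.pres g hg, map_smul, map_smul, g1, g2, hV.a8]
    simp
  have g4 : f (g v') (κ w) = y₂ := by
    have e1 : κ w = g (κ w) - y₁ • v - y₂ • κ v := by rw [hκw]; abel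
    rw [e1, map_sub, map_sub, h.pres g hg, map_smul, map_smul, g1, g2, hV.a9]
    simp
  have k1 : f (g (κ v')) v = 1 := by
    nth_rewrite 1 [← hv]
    rw [h.pres g hg, hV.b1]
  have k2 : f (g (κ v')) (κ v) = 0 := by
    nth_rewrite 1 [← hκv]
    rw [h.pres g hg, h.kk, hV.a4, mul_zero, neg_zero]
  have k3 : f (g (κ v')) w = -x₁ := by
    have e1 : w = g w - x₁ • v - x₂ • κ v := by rw [hw]; abel
    rw [e1, map_sub, map_sub, h.pres g hg, map_smul, map_smul, k1, k2, hV.b3]
    simp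
  have k4 : f (g (κ v')) (κ w) = -y₁ := by
    have e1 : κ w = g (κ w) - y₁ • v - y₂ • κ v := by rw [hκw]; abel
    rw [e1, map_sub, map_sub, h.pres g hg, map_smul, map_smul, k1, k2, h.kk, hV.a8]
    simp
  have G1 := h.expand hF (g v')
  have G2 := h.expand hF (g (κ v'))
  rw [g1, g2, g3, g4] at G1
  rw [k1, k2, k3, k4] at G2
  set P := -(f (g v') (κ v')) with hP
  set Q := f (g v') v' with hQ
  set P' := -(f (g (κ v')) (κ v')) with hP'
  set Q' := f (g (κ v')) v' with hQ'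
  -- the two equations
  have E1 := hcug v'
  have E2 := hcug (κ v')
  have U1 : f (u (g v')) v = 0 := by
    nth_rewrite 1 [← uv]
    rw [h.pres u hu, g1]
  have U2 : f (u (g v')) (κ v) = -1 := by
    nth_rewrite 1 [← uκv]
    rw [h.pres u hu, g2]
  have U3 : f (u (g (κ v'))) v = 1 := by
    nth_rewrite 1 [← uv]
    rw [h.pres u hu, k1]
  have U4 : f (u (g (κ v'))) (κ v) = 0 := by
    nth_rewrite 1 [← uκv]
    rw [h.pres u hu, k2]
  rw [hS, Sm, U1, U2, uv', map_sub, map_sub, map_smul, hv, hw, G1] at E1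
  rw [hS, Sm, U3, U4, uκv', map_sub, map_sub, map_smul, hκv, hκw, G2] at E2
  simp only [map_add, map_smul, uv, uκv, uw, uκw, uv', uκv'] at E1 E2
  have E1' : (x₁ - y₂ - β) • v + (2 * x₂ - γ) • κ v = 0 := by
    have := sub_eq_zero.2 E1
    rw [← this]
    module
  have E2' : (α + 2 * y₁) • v + (β + y₂ - x₁) • κ v = 0 := by
    have := sub_eq_zero.2 E2
    rw [← this]
    module
  -- independence
  have hind : ∀ s t : F, s • v + t • κ v = 0 → s = 0 ∧ t = 0 := by
    intro s t hst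
    have t1 := congrArg (fun z => f z (κ v')) hst
    have t2 := congrArg (fun z => f z v') hst
    simp only [map_add, map_smul, LinearMap.add_apply, LinearMap.smul_apply, smul_eq_mul, h.kk, hV.c1, hF.vp, hF.kvp,
      map_zero, LinearMap.zero_apply, mul_zero, neg_zero, add_zero, zero_add, mul_one, mul_neg, neg_eq_zero] at t1 t2
    exact ⟨t1, t2⟩
  obtain ⟨r1, r2⟩ := hind _ _ E1'
  obtain ⟨r3, -⟩ := hind _ _ E2'
  obtain ⟨z1, z2⟩ := hzero
  constructor
  · have : 2 * (y₁ - d * x₂) = 0 := by linear_combination r3 - z1 - d * r2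
    exact sub_eq_zero.1 ((mul_eq_zero.1 this).resolve_left h2)
  · rw [z2] at r1
    linear_combination -r1

end H6

end Cfsg.Agent.H914.UniThree
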