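import Cfsg.Agent.H914.UniThreeD

/-!
# Overgroups of `GU₃(q).2` in `Sp₆(q)`, V: the alternative (helper914)
-/

set_option autoImplicit false
set_option linter.unusedSectionVars false
set_option linter.unusedSimpArgs false

namespace Cfsg.Agent.H914.UniThree

open Module Cfsg.Agent.H879 Cfsg.Agent.H879.UnitSymp

variable {F V : Type*} [Field F] [AddCommGroup V] [Module F V]
variable {f : V →ₗ[F] V →ₗ[F] F} {κ : V →ₗ[F] V} {d : F} {M : Subgroup (V ≃ₗ[F] V)}

/-- The semilinear elements of `M`. -/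
def semi (κ : V →ₗ[F] V) (M : Subgroup (V ≃ₗ[F] V)) : Subgroup (V ≃ₗ[F] V) where
  carrier := {g | g ∈ M ∧ ∃ ε : F, ε * ε = 1 ∧ ∀ x, g (κ x) = ε • κ (g x)}
  mul_mem' := by
    rintro a b ⟨ha, ε, hε, h1⟩ ⟨hb, ε', hε', h2⟩
    refine ⟨M.mul_mem ha hb, ε * ε', by linear_combination ε' * ε' * hε + hε', fun x => ?_⟩
    rw [LinearEquiv.mul_apply, LinearEquiv.mul_apply, h2, map_smul, h1, smul_smul, mul_comm]
  one_mem' := ⟨M.one_mem, 1, one_mul 1, fun x => by rw [one_smul]; rfl⟩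
  inv_mem' := by
    rintro a ⟨ha, ε, hε, h1⟩
    refine ⟨M.inv_mem ha, ε, hε, fun x => ?_⟩
    apply a.injective
    rw [apply_inv_apply, map_smul, h1, apply_inv_apply, smul_smul, hε, one_smul]

theorem mem_semi {g : V ≃ₗ[F] V} : g ∈ semi κ M ↔ g ∈ M ∧ ∃ ε : F, ε * ε = 1 ∧ ∀ x, g (κ x) = ε • κ (g x) := Iff.rfl

/-- The unitary transvections. -/
def DD (f : V →ₗ[F] V →ₗ[F] F) (κ : V →ₗ[F] V) (d : F) : Set (V ≃ₗ[F] V) :=
  {s | ∃ v, v ≠ 0 ∧ f (κ v) v = 0 ∧ ∃ c : F, c ≠ 0 ∧ ∀ x, s x = Sm f κ v (-(c * d)) 0 c x}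

namespace H6

variable (h : H6 f κ d M)
include h

theorem DD_mem {s : V ≃ₗ[F] V} (hs : s ∈ DD f κ d) : s ∈ semi κ M := by
  obtain ⟨v, hv, hq, c, hc, hx⟩ := hs
  have h1 : s ∈ M := by
    obtain ⟨g, hg, hge⟩ := h.Sm_ut hq hv c
    have : g = s := by
      ext x
      rw [hge, hx]
    rwa [← this]
  refine ⟨h1, 1, one_mul 1, fun x => ?_⟩
  rw [hx, hx, one_smul]
  unfold Sm
  have k1 : f (κ x) v = - f x (κ v) := h.adj x v
  simp only [map_add, map_smul, h.sq, h.kk, k1]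
  module

theorem DD_pow {p : ℕ} (hp : (p : F) = 0) {s : V ≃ₗ[F] V} (hs : s ∈ DD f κ d) : s ^ p = 1 := by
  obtain ⟨v, hv, hq, c, hc, hx⟩ := hs
  have key : ∀ n : ℕ, ∀ x, (s ^ n) x = Sm f κ v (-((n : F) * c * d)) 0 ((n : F) * c) x := by
    intro n
    induction n with
    | zero =>
      intro x
      rw [pow_zero]
      unfold Sm
      simp
    | succ n ih =>
      intro x
      rw [pow_succ', LinearEquiv.mul_apply, ih, hx, h.Sm_comp hq]
      congr 1 <;> push_cast <;> ring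
  ext x
  rw [key, hp]
  unfold Sm
  simp

/-- **The TI property**. -/
theorem ti (hnt : ¬ ∀ (y : V) (e : F), Has M (tr f y e)) {s : V ≃ₗ[F] V} (hs : s ∈ DD f κ d) {g : V ≃ₗ[F] V}
    (hg : g ∈ M) (hgs : g * s * g⁻¹ ∈ semi κ M) : g ∈ semi κ M := by
  obtain ⟨v, hv, hq, c, hc, hx⟩ := hs
  obtain ⟨-, ε, hε, hgsκ⟩ := hgs
  have := h.finite
  have hd := h.d_ne
  obtain ⟨w, v', hF⟩ := h.exists_frame hv hq
  have hV := h.vals hF
  have pr := h.pres g hg
  -- the conjugate
  have hN : ∀ x, (g * s * g⁻¹) x = x + (c * f x (g (κ v))) • g (κ v) - (c * d * f x (g v)) • g v := by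
    intro x
    rw [LinearEquiv.mul_apply, LinearEquiv.mul_apply, hx]
    unfold Sm
    simp only [map_add, map_smul, apply_inv_apply, h.pres_inv hg]
    module
  have hab : f (g v) (g (κ v)) = 0 := by rw [pr, hV.a1]
  have hba : f (g (κ v)) (g v) = 0 := by rw [pr, hF.vv]
  -- `ε = 1`
  have hε1 : ε = 1 := by
    obtain ⟨x, hx0, x1, x2, x3, x4⟩ : ∃ x, x ≠ 0 ∧ f (g v) x = 0 ∧ f (g (κ v)) x = 0 ∧ f (κ (g v)) x = 0 ∧
        f (κ (g (κ v))) x = 0 := by
      let L : V →ₗ[F] (Fin 4 → F) := LinearMap.pi ![f (g v), f (g (κ v)), f (κ (g v)), f (κ (g (κ v)))]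
      have h1 := LinearMap.finrank_range_add_finrank_ker L
      have h2 : finrank F (LinearMap.range L) ≤ 4 := by
        have := Submodule.finrank_le (LinearMap.range L)
        simpa using this
      rw [h.dim] at h1
      have h3 : LinearMap.ker L ≠ ⊥ := by
        intro h0
        rw [h0, finrank_bot] at h1
        omega
      obtain ⟨w, hw, hw0⟩ := (Submodule.ne_bot_iff _).1 h3
      rw [LinearMap.mem_ker] at hw
      exact ⟨w, hw0, congrFun hw 0, congrFun hw 1, congrFun hw 2, congrFun hw 3⟩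
    have h1 := hgsκ x
    have y1 : f x (g v) = 0 := by rw [h.skew, x1, neg_zero]
    have y2 : f x (g (κ v)) = 0 := by rw [h.skew, x2, neg_zero]
    have y3 : f (κ x) (g v) = 0 := by rw [h.symm, x3]
    have y4 : f (κ x) (g (κ v)) = 0 := by rw [h.symm, x4]
    rw [hN, hN, y1, y2, y3, y4] at h1
    simp only [mul_zero, zero_smul, add_zero, sub_zero] at h1
    have h4 : (1 - ε) • κ x = 0 := by rw [sub_smul, one_smul, ← h1, sub_self]
    have h5 : κ x ≠ 0 := by
      intro h0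
      have := h.sq x
      rw [h0, map_zero] at this
      exact hx0 ((smul_eq_zero.1 this.symm).resolve_left hd)
    exact (sub_eq_zero.1 ((smul_eq_zero.1 h4).resolve_right h5)).symm
  subst hε1
  -- `κ (g v)`
  have z1 : f (g (κ v')) (g v) = 1 := by rw [pr, hV.b1]
  have z2 : f (g (κ v')) (g (κ v)) = 0 := by rw [pr, h.kk, hV.a4, mul_zero, neg_zero]
  have h6 := hgsκ (g (κ v'))
  rw [hN, hN, z1, z2, one_smul] at h6
  set r := f (κ (g (κ v'))) (g v) with hr
  set p := f (κ (g (κ v'))) (g (κ v)) with hp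
  have h7 : κ (g v) = (-(p / d)) • g (κ v) + r • g v := by
    simp only [map_add, map_sub, map_smul, mul_zero, zero_smul, add_zero, mul_one, sub_zero, map_zero] at h6
    have h8 : (c * d) • κ (g v) = (c * d) • ((-(p / d)) • g (κ v) + r • g v) := by
      have h9 : (c * p) • g (κ v) - (c * d * r) • g v + (c * d) • κ (g v) = 0 := by
        have := sub_eq_zero.2 h6
        rw [← this]
        abel
      have h10 : (c * d) • ((-(p / d)) • g (κ v) + r • g v) = -((c * p) • g (κ v)) + (c * d * r) • g v := by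
        rw [smul_add, smul_smul, smul_smul]
        have : c * d * -(p / d) = -(c * p) := by field_simp
        rw [this, neg_smul]
      rw [h10]
      have := eq_neg_of_add_eq_zero_right h9
      rw [this]
      abel
    exact smul_right_injective V (mul_ne_zero hc hd) h8
  have hgq : f (κ (g v)) (g v) = 0 := by
    rw [h7, map_add, map_smul, map_smul, LinearMap.add_apply, LinearMap.smul_apply, LinearMap.smul_apply, hba, h.alt]
    simp
  have hgv0 : g v ≠ 0 := fun h0 => hv ((LinearEquiv.map_eq_zero_iff g).1 h0)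
  have hp0 : -(p / d) ≠ 0 := by
    intro h0
    rw [h0, zero_smul, zero_add] at h7
    have h8 := h.sq (g v)
    rw [h7, map_smul, h7, smul_smul] at h8
    apply h.nsq r
    have : (r * r - d) • g v = 0 := by rw [sub_smul, h8, sub_self]
    exact sub_eq_zero.1 ((smul_eq_zero.1 this).resolve_right hgv0)
  obtain ⟨w₁, v₁', hF₁⟩ := h.exists_frame hgv0 hgq
  obtain ⟨k, hk, hkκ, k1, -, -⟩ := h.exists_ext (one_mul 1) hF hF₁
  simp only [one_smul] at hkκ
  have hkM : k ∈ semi κ M := ⟨hk, 1, one_mul 1, fun x => by rw [hkκ, one_smul]⟩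
  have hkinv : ∀ x y, k x = y → k⁻¹ y = x := by
    rintro x _ rfl
    exact inv_apply_apply k x
  have hg'M : k⁻¹ * g ∈ M := M.mul_mem (M.inv_mem hk) hg
  have e1 : (k⁻¹ * g) v = (1 : F) • v + (0 : F) • κ v := by
    rw [LinearEquiv.mul_apply, hkinv v _ k1]
    simp
  have e2 : (k⁻¹ * g) (κ v) = (-(r * (-(p / d))⁻¹)) • v + (-(p / d))⁻¹ • κ v := by
    rw [LinearEquiv.mul_apply]
    apply hkinv
    rw [map_add, map_smul, map_smul, hkκ, k1, h7, smul_add, smul_smul, inv_mul_cancel₀ hp0, one_smul, smul_smul,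
      mul_comm r, neg_smul]
    abel
  obtain ⟨ε', hε', h9⟩ := h.semilinear_of_stab hF hnt hg'M e1 e2
  have h10 : k⁻¹ * g ∈ semi κ M := ⟨hg'M, ε', hε', h9⟩
  have h11 := (semi κ M).mul_mem hkM h10
  rwa [mul_inv_cancel_left] at h11

/-- An isotropic vector orthogonal to a given vector. -/
theorem exists_iso_perp {x : V} (hx : f (κ x) x ≠ 0) :
    ∃ v, v ≠ 0 ∧ f (κ v) v = 0 ∧ f x v = 0 ∧ f x (κ v) = 0 := by
  have := h.finite
  have hd := h.d_ne
  have hkadj : ∀ x e, f (κ x) e = 0 → f x (κ e) = 0 := by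
    intro x e hxe
    have := h.adj x e
    rw [hxe] at this
    exact neg_eq_zero.1 this.symm
  have hker : ∀ a b : V, ∃ y, y ≠ 0 ∧ f a y = 0 ∧ f (κ a) y = 0 ∧ f b y = 0 ∧ f (κ b) y = 0 := by
    intro a b
    let L : V →ₗ[F] (Fin 4 → F) := LinearMap.pi ![f a, f (κ a), f b, f (κ b)]
    have h1 := LinearMap.finrank_range_add_finrank_ker L
    have h2 : finrank F (LinearMap.range L) ≤ 4 := by
      have := Submodule.finrank_le (LinearMap.range L)
      simpa using this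
    rw [h.dim] at h1
    have h3 : LinearMap.ker L ≠ ⊥ := by
      intro h0
      rw [h0, finrank_bot] at h1
      omega
    obtain ⟨w, hw, hw0⟩ := (Submodule.ne_bot_iff _).1 h3
    rw [LinearMap.mem_ker] at hw
    exact ⟨w, hw0, congrFun hw 0, congrFun hw 1, congrFun hw 2, congrFun hw 3⟩
  obtain ⟨y, hy0, y1, y2, -, -⟩ := hker x x
  by_cases hqy : f (κ y) y = 0
  · exact ⟨y, hy0, hqy, y1, hkadj _ _ y2⟩
  obtain ⟨z, hz0, z1, z2, z3, z4⟩ := hker x y
  by_cases hqz : f (κ z) z = 0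
  · exact ⟨z, hz0, hqz, z1, hkadj _ _ z2⟩
  obtain ⟨α, β, hαβ⟩ := h.norm (-(f (κ y) y) / f (κ z) z)
  have z5 : f y (κ z) = 0 := hkadj _ _ z4
  have z6 : f (κ y) (κ z) = 0 := by rw [h.kk, z3, mul_zero, neg_zero]
  have z7 : f x (κ z) = 0 := hkadj _ _ z2
  have z8 : f (κ x) (κ z) = 0 := by rw [h.kk, z1, mul_zero, neg_zero]
  refine ⟨y + (α • z + β • κ z), ?_, ?_, ?_, ?_⟩
  · intro h0
    apply hqy
    have := congrArg (fun t => f (κ y) t) h0
    simp only [map_add, map_smul, z4, z6, map_zero, smul_zero, add_zero] at this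
    exact this
  · rw [h.q_add, h.q_comb, hαβ, div_mul_cancel₀ _ hqz, map_add, map_smul, map_smul, z4, z6]
    simp
  · rw [map_add, map_add, map_smul, map_smul, y1, z1, z7]
    simp
  · simp only [map_add, map_smul, h.sq, hkadj _ _ y2, z7, z1, smul_zero, add_zero]

/-- Isotropic vectors are mapped to isotropic vectors. -/
theorem isotropic_of (hfin : Finite F) (hnt : ¬ ∀ (y : V) (e : F), Has M (tr f y e)) {g : V ≃ₗ[F] V} (hg : g ∈ M) {v : V}
    (hv : f (κ v) v = 0) : f (κ (g v)) (g v) = 0 := by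
  by_contra hcon
  have := h.finite
  have hv0 : v ≠ 0 := by
    rintro rfl
    simp at hcon
  obtain ⟨v₁, hv1, hq1, x1, x2⟩ := h.exists_iso_perp hcon
  have hfV : Finite V := Module.finite_of_finite F
  have hfE : Finite (V ≃ₗ[F] V) := Finite.of_injective (fun g : V ≃ₗ[F] V => (g : V → V)) DFunLike.coe_injective
  have hfM : Finite M := Subtype.finite
  obtain ⟨p, hp, hp0⟩ : ∃ p : ℕ, p.Prime ∧ (p : F) = 0 := by
    refine ⟨ringChar F, CharP.char_is_prime F (ringChar F), CharP.cast_eq_zero F (ringChar F)⟩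
  obtain ⟨s, hs, hsx⟩ := h.Sm_ut hv hv0 1
  obtain ⟨t, ht, htx⟩ := h.Sm_ut hq1 hv1 1
  have hsD : s ∈ DD f κ d := ⟨v, hv0, hv, 1, one_ne_zero, hsx⟩
  have htD : t ∈ DD f κ d := ⟨v₁, hv1, hq1, 1, one_ne_zero, htx⟩
  let L : Subgroup (V ≃ₗ[F] V) :=
    { carrier := {m | m v = v}
      mul_mem' := by
        intro a b (ha : a v = v) (hb : b v = v)
        show (a * b) v = v
        rw [LinearEquiv.mul_apply, hb, ha]
      one_mem' := rfl
      inv_mem' := by
        intro a (ha : a v = v)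
        show a⁻¹ v = v
        nth_rewrite 1 [← ha]
        exact inv_apply_apply a v }
  have e1 : f v (κ v) = 0 := by rw [h.skew, hv, neg_zero]
  have hsL : s ∈ L := by
    show s v = v
    rw [hsx]
    unfold Sm
    rw [h.alt, e1]
    simp
  have htL : g⁻¹ * t * g⁻¹⁻¹ ∈ L := by
    show (g⁻¹ * t * g⁻¹⁻¹) v = v
    rw [inv_inv, LinearEquiv.mul_apply, LinearEquiv.mul_apply]
    have : t (g v) = g v := by
      rw [htx]
      unfold Sm
      rw [x1, x2]
      simp
    rw [this, inv_apply_apply]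
  obtain ⟨m, hm, k, hk, hgm⟩ := Cfsg.Agent.H880.ti_transfer_one hp M (semi κ M) (fun x hx => hx.1) (DD f κ d)
    (fun s hs => ⟨h.DD_mem hs, 1, by rw [pow_one]; exact h.DD_pow hp0 hs⟩)
    (fun s hs g hg hgs => h.ti hnt hs hg hgs) L hsD htD (M.inv_mem hg) hsL htL
  -- `g v = k⁻¹ v`
  have hgv : g v = k⁻¹ v := by
    have h1 : g = k⁻¹ * m⁻¹ := by
      rw [← inv_inj, hgm]
      group
    have h2 : m⁻¹ v = v := L.inv_mem hm
    rw [h1, LinearEquiv.mul_apply, h2]
  obtain ⟨hkM, ε, hε, hkκ⟩ := (semi κ M).inv_mem hk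
  apply hcon
  have h3 : κ (k⁻¹ v) = ε • k⁻¹ (κ v) := by rw [hkκ, smul_smul, hε, one_smul]
  rw [hgv, h3, map_smul, LinearMap.smul_apply, h.pres _ hkM, hv, smul_zero]

/-- **The alternative**. -/
theorem alternative (hfin : Finite F) : (∀ g ∈ M, ∃ ε : F, ε * ε = 1 ∧ ∀ x, g (κ x) = ε • κ (g x)) ∨
    ∀ (y : V) (e : F), Has M (tr f y e) := by
  by_cases hnt : ∀ (y : V) (e : F), Has M (tr f y e)
  · exact Or.inr hnt
  left
  intro g hg
  have h2 := h.two
  have hd := h.d_ne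
  have hiso := fun (v : V) (hv : f (κ v) v = 0) => h.isotropic_of hfin hnt hg hv
  -- an isotropic vector
  obtain ⟨v, hv0, hv⟩ : ∃ v : V, v ≠ 0 ∧ f (κ v) v = 0 := by
    have := h.finite
    have hnt' : Nontrivial V := Module.nontrivial_of_finrank_pos (R := F) (by rw [h.dim]; norm_num)
    obtain ⟨x, hx⟩ := exists_ne (0 : V)
    by_cases hq : f (κ x) x = 0
    · exact ⟨x, hx, hq⟩
    · obtain ⟨v, h1, h2, -, -⟩ := h.exists_iso_perp hq
      exact ⟨v, h1, h2⟩
  obtain ⟨w, v', hF⟩ := h.exists_frame hv0 hv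
  have hV := h.vals hF
  have key : ∀ y, f (κ y) y = 0 → f (κ v) y = 0 → f (κ (g v)) (g y) = 0 := by
    intro y hy hvy
    have h1 := hiso (v + y) (by rw [h.q_add, hv, hy, hvy]; ring)
    rw [map_add, h.q_add, hiso v hv, hiso y hy, zero_add, zero_add] at h1
    exact (mul_eq_zero.1 h1).resolve_left h2
  have y1 := key v hv hv
  have y2 := key (κ v) (by rw [h.sq, map_smul, LinearMap.smul_apply, hV.a1, smul_zero]) (h.alt _)
  have y3 := key (κ v') (by rw [h.sq, map_smul, LinearMap.smul_apply, hV.a3, smul_zero])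
    (by rw [h.kk, hF.vp, mul_zero, neg_zero])
  have y4 := key ((1 / (2 * d) : F) • κ v + w + κ v') (by
    simp only [map_add, map_smul, LinearMap.add_apply, LinearMap.smul_apply, smul_eq_mul, h.kk, h.alt, h.sq, hV.a1, hV.a2, hV.a3,
        hV.a4, hV.a5, hV.a6, hV.a7, hV.a8, hV.a9, hV.b1, hV.b2, hV.b3, hV.c1, hV.c2, hV.c3, hF.vv, hF.ww, hF.pp, hF.vp, hF.kvp,
        hF.vw, hF.kvw, hF.wp, hF.kwp, mul_zero, neg_zero, add_zero, zero_add, mul_one, mul_neg, neg_neg, sub_zero, zero_sub]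
    field_simp
    ring) (by
    simp only [map_add, map_smul, h.alt, hF.kvw, h.kk, hF.vp, smul_zero, mul_zero, neg_zero, add_zero])
  have y5 := key ((-(1 / 2) : F) • κ v + κ w + κ v') (by
    simp only [map_add, map_smul, LinearMap.add_apply, LinearMap.smul_apply, smul_eq_mul, h.kk, h.alt, h.sq, hV.a1, hV.a2, hV.a3,
        hV.a4, hV.a5, hV.a6, hV.a7, hV.a8, hV.a9, hV.b1, hV.b2, hV.b3, hV.c1, hV.c2, hV.c3, hF.vv, hF.ww, hF.pp, hF.vp, hF.kvp,
        hF.vw, hF.kvw, hF.wp, hF.kwp, mul_zero, neg_zero, add_zero, zero_add, mul_one, mul_neg, neg_neg, sub_zero, zero_sub]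
    field_simp
    ring) (by
    simp only [map_add, map_smul, h.alt, hF.kvw, h.kk, hF.vp, hF.vw, smul_zero, mul_zero, neg_zero, add_zero])
  have y6 : f (κ (g v)) (g w) = 0 := by
    simp only [map_add, map_smul, y2, y3, smul_zero, add_zero, zero_add] at y4
    exact y4
  have y7 : f (κ (g v)) (g (κ w)) = 0 := by
    simp only [map_add, map_smul, y2, y3, smul_zero, add_zero, zero_add] at y5
    exact y5
  -- `z = g⁻¹ κ g v`
  have hz : ∀ y, f (g⁻¹ (κ (g v))) y = f (κ (g v)) (g y) := fun y => h.pres_inv hg _ _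
  have hexp := h.expand hF (g⁻¹ (κ (g v)))
  rw [hz, hz, hz, hz, hz, hz, y1, y2, y3, y6, y7] at hexp
  simp only [neg_zero, zero_smul, zero_add, add_zero] at hexp
  set t := f (κ (g v)) (g v') with ht
  have hκg : κ (g v) = t • g (κ v) := by
    have := congrArg (fun x => g x) hexp
    simp only [apply_inv_apply, map_smul] at this
    exact this
  have hgv0 : g v ≠ 0 := fun h0 => hv0 ((LinearEquiv.map_eq_zero_iff g).1 h0)
  have ht0 : t ≠ 0 := by
    intro h0
    rw [h0, zero_smul] at hκg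
    have := h.sq (g v)
    rw [hκg, map_zero] at this
    exact hgv0 ((smul_eq_zero.1 this.symm).resolve_left hd)
  obtain ⟨w₁, v₁', hF₁⟩ := h.exists_frame hgv0 (hiso v hv)
  obtain ⟨k, hk, hkκ, k1, -, -⟩ := h.exists_ext (one_mul 1) hF hF₁
  simp only [one_smul] at hkκ
  have hkinv : ∀ x y, k x = y → k⁻¹ y = x := by
    rintro x _ rfl
    exact inv_apply_apply k x
  have hg'M : k⁻¹ * g ∈ M := M.mul_mem (M.inv_mem hk) hg
  have e1 : (k⁻¹ * g) v = (1 : F) • v + (0 : F) • κ v := by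
    rw [LinearEquiv.mul_apply, hkinv v _ k1]
    simp
  have e2 : (k⁻¹ * g) (κ v) = (0 : F) • v + t⁻¹ • κ v := by
    rw [LinearEquiv.mul_apply]
    apply hkinv
    rw [zero_smul, zero_add, map_smul, hkκ, k1, hκg, smul_smul, inv_mul_cancel₀ ht0, one_smul]
  obtain ⟨ε, hε, h9⟩ := h.semilinear_of_stab hF hnt hg'M e1 e2
  refine ⟨ε, hε, fun x => ?_⟩
  have h10 : ∀ x, g x = k ((k⁻¹ * g) x) := fun x => by rw [LinearEquiv.mul_apply, apply_inv_apply]
  rw [h10, h10 x, h9, map_smul, hkκ]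

end H6

end Cfsg.Agent.H914.UniThree
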