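import Cfsg.Agent.H914.UniThreeE

/-!
# `GU₃(q).2` is maximal in `Sp₆(q)`, `q` odd (helper914)
-/

set_option autoImplicit false
set_option linter.unusedSectionVars false
set_option linter.unusedSimpArgs false

namespace Cfsg.Agent.H914.UniThree

open Module Cfsg.Agent.H879 Cfsg.Agent.H879.UnitSymp
open Cfsg Matrix Cfsg.Agent.ClassicalGeometry.SympBasic Cfsg.Agent.H875.UnitSp

theorem unit_maximal_aux {F : Type*} [Field F] [Fintype F] (m : ℕ) (hm : m = 3) (hodd : Odd (Fintype.card F)) (K : Subalgebra F (Matrix (Fin m ⊕ Fin m) (Fin m ⊕ Fin m) F)) (hK : Cfsg.Geo.IsFieldSubalgebra 2 K) (hac : Cfsg.Geo.IsAdjointClosedFor (Cfsg.sympForm m F) K) (hnsa : ¬ Cfsg.Geo.IsSelfAdjointFor (Cfsg.sympForm m F) K) : Cfsg.Geo.IsMaximalIn (Cfsg.spGL m F) (Cfsg.Geo.subalgebraNormalizer K ⊓ Cfsg.spGL m F) := by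
  refine isMaximalIn_of hK le_rfl (by omega) fun M hHM hMS => ?_
  -- the element κ
  obtain ⟨k, hk, hkn⟩ : ∃ k ∈ K, ¬ ∀ u v, sympForm m F (k *ᵥ u) v = sympForm m F u (k *ᵥ v) := by
    by_contra hcon
    push Not at hcon
    exact hnsa hcon
  obtain ⟨k', hk', hadj⟩ := hac k hk
  have hadj' : ∀ u v, sympForm m F (k' *ᵥ u) v = sympForm m F u (k *ᵥ v) := by
    intro u v
    rw [sympForm_swap, ← hadj, sympForm_swap, neg_neg]
  set κ : Matrix (Fin m ⊕ Fin m) (Fin m ⊕ Fin m) F := k - k' with hκ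
  have hκK : κ ∈ K := K.sub_mem hk hk'
  have hκadj : ∀ u v, sympForm m F (κ *ᵥ u) v = - sympForm m F u (κ *ᵥ v) := by
    intro u v
    rw [hκ, sub_mulVec, sub_mulVec, sympForm_sub_left, sympForm_sub_right, hadj, hadj']
    ring
  have hκ0 : κ ≠ 0 := by
    intro h0
    apply hkn
    intro u v
    rw [hadj, ← sub_eq_zero.1 h0]
  have htwo := two_ne hodd
  have hns : ∀ c : F, κ ≠ c • (1 : Matrix _ _ F) := by
    intro c hc
    have h1 : ∀ u v, 2 * (c * sympForm m F u v) = 0 := by
      intro u v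
      have := hκadj u v
      rw [hc, smul_mulVec, smul_mulVec, one_mulVec, one_mulVec, sympForm_smul_left,
        sympForm_smul_right] at this
      linear_combination this
    have hc0 : c = 0 := by
      by_contra hc0
      let i₀ : Fin m := ⟨0, by omega⟩
      have h2 : ∀ w, sympForm m F w (Pi.single (Sum.inl i₀) 1) = 0 := by
        intro w
        have := h1 w (Pi.single (Sum.inl i₀) 1)
        exact (mul_eq_zero.1 ((mul_eq_zero.1 this).resolve_left htwo)).resolve_left hc0
      have h3 := congrFun (eq_zero_of_forall_sympForm_left h2) (Sum.inl i₀)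
      rw [Pi.single_eq_same] at h3
      exact one_ne_zero h3
    rw [hc0, zero_smul] at hc
    exact hκ0 hc
  -- K is spanned by 1 and κ
  have hspan : ∀ x ∈ K, ∃ α β : F, x = α • (1 : Matrix _ _ F) + β • κ := by
    intro x hx
    have hli : LinearIndependent F ![(1 : K), ⟨κ, hκK⟩] := by
      rw [LinearIndependent.pair_iff]
      intro s t hst
      have h1 := congrArg Subtype.val hst
      change s • (1 : Matrix _ _ F) + t • κ = 0 at h1
      have ht : t = 0 := by
        by_contra ht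
        apply hns (-(t⁻¹ * s))
        have h2 : κ = t⁻¹ • (t • κ) := by rw [smul_smul, inv_mul_cancel₀ ht, one_smul]
        rw [h2, eq_neg_of_add_eq_zero_right h1, smul_neg, smul_smul, neg_smul]
      refine ⟨?_, ht⟩
      rw [ht, zero_smul, add_zero] at h1
      by_contra hs
      have h2 := congrFun (congrFun h1 (Sum.inl ⟨0, by omega⟩)) (Sum.inl ⟨0, by omega⟩)
      simp at h2
      exact hs h2
    have hfin : FiniteDimensional F K := Module.finite_of_finrank_pos (by
      rw [hK.finrank_eq]; norm_num)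
    have hsp := hli.span_eq_top_of_card_eq_finrank (by
      rw [hK.finrank_eq]; simp)
    have hx' : (⟨x, hx⟩ : K) ∈ Submodule.span F (Set.range ![(1 : K), ⟨κ, hκK⟩]) := by
      rw [hsp]; trivial
    rw [Submodule.mem_span_range_iff_exists_fun] at hx'
    obtain ⟨c, hc⟩ := hx'
    rw [Fin.sum_univ_two] at hc
    exact ⟨c 0, c 1, (congrArg Subtype.val hc).symm⟩
  obtain ⟨d, b, hdb⟩ := hspan (κ * κ) (K.mul_mem hκK hκK)
  have hb : b = 0 := by
    by_contra hb
    -- κ² is self-adjoint
    have h1 : ∀ u v, sympForm m F ((κ * κ) *ᵥ u) v = sympForm m F u ((κ * κ) *ᵥ v) := by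
      intro u v
      rw [← mulVec_mulVec, ← mulVec_mulVec, hκadj, hκadj, neg_neg]
    have h2 : ∀ u v, sympForm m F u (κ *ᵥ v) = 0 := by
      intro u v
      have := h1 u v
      rw [hdb, add_mulVec, add_mulVec, smul_mulVec, smul_mulVec, smul_mulVec, smul_mulVec,
        one_mulVec, one_mulVec, sympForm_add_left, sympForm_add_right, sympForm_smul_left,
        sympForm_smul_left, sympForm_smul_right, sympForm_smul_right, hκadj] at this
      have h3 : 2 * (b * sympForm m F u (κ *ᵥ v)) = 0 := by linear_combination -this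
      exact (mul_eq_zero.1 ((mul_eq_zero.1 h3).resolve_left htwo)).resolve_left hb
    apply hκ0
    apply Matrix.mulVec_injective
    funext v
    rw [zero_mulVec]
    exact eq_zero_of_forall_sympForm_left fun w => h2 w v
  rw [hb, zero_smul, add_zero] at hdb
  have hsq : ∀ x, κ *ᵥ (κ *ᵥ x) = d • x := by
    intro x
    rw [mulVec_mulVec, hdb, smul_mulVec, one_mulVec]
  have hnsq : ∀ c : F, c * c ≠ d := by
    intro c hc
    have h1 : (κ - c • 1) * (κ + c • 1) = 0 := by
      rw [sub_mul, mul_add, mul_add, hdb, ← hc]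
      simp only [Matrix.mul_smul, Matrix.smul_mul, mul_one, one_mul]
      module
    have h2 : κ - c • 1 ≠ 0 := sub_ne_zero.2 (hns c)
    obtain ⟨y, hy, hxy⟩ := hK.inv _ (K.sub_mem hκK (K.smul_mem K.one_mem c)) h2
    have h3 : κ + c • 1 = 0 := by
      have h4 : y * (κ - c • 1) = 1 := by
        rw [hK.comm y hy _ (K.sub_mem hκK (K.smul_mem K.one_mem c)), hxy]
      calc κ + c • 1 = (y * (κ - c • 1)) * (κ + c • 1) := by rw [h4, one_mul]
        _ = 0 := by rw [mul_assoc, h1, mul_zero]
    apply hns (-c)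
    rw [neg_smul]
    exact eq_neg_of_add_eq_zero_left h3
  have hd0 : d ≠ 0 := by
    rintro rfl
    exact hnsq 0 (mul_zero 0)
  -- the hypotheses
  have h : H6 (sympBilin m F) (Matrix.toLin' κ) d (M.map toEq.toMonoidHom) := by
    refine ⟨sympForm_self, ?_, htwo, ?_, hnsq, ?_, ?_, ?_, ?_, ?_⟩
    · intro x hx
      by_contra hcon
      push Not at hcon
      exact hx (eq_zero_of_forall_sympForm_right hcon)
    · intro x
      rw [toLin'_apply, toLin'_apply, hsq]
    · intro e
      obtain ⟨α, β, hαβ⟩ := exists_quad hodd one_ne_zero (neg_ne_zero.2 hd0) e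
      exact ⟨α, β, by linear_combination hαβ⟩
    · intro x y
      rw [toLin'_apply, toLin'_apply]
      exact hκadj x y
    · rw [finrank_fintype_fun_eq_card, Fintype.card_sum, Fintype.card_fin]
      omega
    · rintro _ ⟨g, hg, rfl⟩ x y
      exact hMS hg x y
    · intro g hgiso ε hε hgκ
      obtain ⟨g₀, rfl⟩ := toEq.surjective g
      refine ⟨g₀, hHM ⟨?_, ?_⟩, rfl⟩
      · apply mem_subalgebraNormalizer_of_semilinear
        intro x hx
        obtain ⟨α, β, rfl⟩ := hspan x hx
        refine ⟨α • (1 : Matrix _ _ F) + (β * ε) • κ, K.add_mem (K.smul_mem K.one_mem _) (K.smul_mem hκK _), fun y => ?_⟩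
        have h2 := hgκ y
        rw [toLin'_apply, toLin'_apply, toEq_apply, toEq_apply] at h2
        simp only [add_mulVec, smul_mulVec, one_mulVec, mulVec_add, mulVec_smul, h2, smul_smul]
      · intro u v
        exact hgiso u v
  rcases h.alternative inferInstance with h1 | h1
  · left
    intro g hg
    apply mem_subalgebraNormalizer_of_semilinear
    intro x hx
    obtain ⟨ε, -, hε⟩ := h1 (toEq g) ⟨g, hg, rfl⟩
    obtain ⟨s, t, rfl⟩ := hspan x hx
    refine ⟨s • (1 : Matrix _ _ F) + (t * ε) • κ, ?_, fun y => ?_⟩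
    · exact K.add_mem (K.smul_mem K.one_mem _) (K.smul_mem hκK _)
    · have h2 := hε y
      rw [toLin'_apply, toLin'_apply, toEq_apply, toEq_apply] at h2
      simp only [add_mulVec, smul_mulVec, one_mulVec, mulVec_add, mulVec_smul, h2, smul_smul]
  · right
    apply spGL_le_of_has
    exact fun v c => h1 v c

/-- **Part (6) of S5804**: `GU₃(q).2` is maximal in `Sp₆(q)`, `q` odd. -/
theorem unit_maximal_three {F : Type*} [Field F] [Fintype F] (hodd : Odd (Fintype.card F))
    (K : Subalgebra F (Matrix (Fin 3 ⊕ Fin 3) (Fin 3 ⊕ Fin 3) F)) (hK : Cfsg.Geo.IsFieldSubalgebra 2 K)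
    (hac : Cfsg.Geo.IsAdjointClosedFor (Cfsg.sympForm 3 F) K)
    (hnsa : ¬ Cfsg.Geo.IsSelfAdjointFor (Cfsg.sympForm 3 F) K) :
    Cfsg.Geo.IsMaximalIn (Cfsg.spGL 3 F) (Cfsg.Geo.subalgebraNormalizer K ⊓ Cfsg.spGL 3 F) :=
  unit_maximal_aux 3 rfl hodd K hK hac hnsa

end Cfsg.Agent.H914.UniThree
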